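import Mathlib
import Cfsg.Prelude.Def_Blocks
import Cfsg.Agent.Lib.Helper16.Idem
import Cfsg.Agent.Lib.Helper16.Brauer
import Cfsg.Agent.Lib.Helper16.Normal
import Cfsg.Agent.Lib.Helper16.Defect
import Cfsg.Agent.Lib.Helper75.NumMinMax
import Cfsg.Agent.Lib.Helper77.OsimaVanish

/-!
# Green's theorem on defect groups as Sylow intersections

* `IsJ M x`: all coefficients of the group algebra element `x` lie in the local ideal.
* `stab M hMp z`: the subgroup of the `q` with `z * q ≡ z` modulo the local ideal.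
* `exists_invariant`: for a `p`-subgroup `Q` and an integral `x ≢ 0` there is an integral `c`
  with `x * c ≢ 0` right `Q`-invariant modulo the local ideal.
* `exists_eq_mul_sum`: a right `Q`-invariant integral element is `≡ y * (sum of Q)`.
* `exists_coeff_sum_not_mem`: a central integral `w`, idempotent modulo the local ideal and
  `≢ 0`, is not killed by the sum of a `p`-subgroup.
* `sum_memLocalIdeal_of_fixed`: fixed point congruence for sums over a set acted on by a
  `p`-group.
* `exists_fixed_coeff`: for such `w` and a `p`-subgroup `Q` there is `y` with `w.coeff y`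
  outside the local ideal such that `Q ∩ y Q y⁻¹` centralizes `y`.
* `green`: a defect group `D ≤ P`, `P` Sylow, is `P ∩ x P x⁻¹` for a `p`-regular `x` with `D`
  a Sylow `p`-subgroup of `C_G(x)`.
-/

set_option autoImplicit false

namespace Cfsg.Agent.Lib.CT.Green

open Cfsg Cfsg.Agent.Lib.Helper77.LocalRing Cfsg.Agent.Lib.Helper77.CentralChar
  Cfsg.Agent.Lib.Helper77.ClassSum Cfsg.Agent.Lib.Helper77.BlockIdem

universe u
variable {K : Type u} [Group K] {M : Ideal AlgInt}

/-- All coefficients lie in the local ideal. -/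
def IsJ (M : Ideal AlgInt) (x : MonoidAlgebra ℂ K) : Prop :=
  ∀ k : K, MemLocalIdeal M (x.coeff k)

theorem isJ_zero (hMp : M.IsPrime) : IsJ M (0 : MonoidAlgebra ℂ K) := fun k => by
  simpa using memLocalIdeal_zero hMp

theorem isJ_add (hMp : M.IsPrime) {x y : MonoidAlgebra ℂ K} (hx : IsJ M x) (hy : IsJ M y) :
    IsJ M (x + y) := fun k => by
  rw [MonoidAlgebra.coeff_add]
  exact memLocalIdeal_add hMp (hx k) (hy k)

theorem isJ_neg {x : MonoidAlgebra ℂ K} (hx : IsJ M x) : IsJ M (-x) := fun k => by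
  rw [MonoidAlgebra.coeff_neg]
  exact memLocalIdeal_neg (hx k)

theorem isJ_sub (hMp : M.IsPrime) {x y : MonoidAlgebra ℂ K} (hx : IsJ M x) (hy : IsJ M y) :
    IsJ M (x - y) := fun k => by
  rw [MonoidAlgebra.coeff_sub]
  exact memLocalIdeal_sub hMp (hx k) (hy k)

theorem isJ_mul_right [Finite K] (hMp : M.IsPrime) {x a : MonoidAlgebra ℂ K} (hx : IsJ M x)
    (ha : a ∈ intSubring M hMp) : IsJ M (x * a) := fun k =>
  Cfsg.Agent.Lib.Helper16.Idem.coeff_mul_memLocalIdeal hMp x a hx ha k

theorem isJ_mul_left [Finite K] (hMp : M.IsPrime) {x a : MonoidAlgebra ℂ K}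
    (ha : a ∈ intSubring M hMp) (hx : IsJ M x) : IsJ M (a * x) := fun k => by
  classical
  cases nonempty_fintype K
  rw [MonoidAlgebra.coeff_mul_apply_left, Finsupp.sum_fintype _ _ (fun _ => by simp)]
  apply memLocalIdeal_sum hMp
  intro h _
  exact memLocalIdeal_mul_left hMp (ha h) (hx _)

theorem of_mem_int (hMp : M.IsPrime) (k : K) : MonoidAlgebra.of ℂ K k ∈ intSubring M hMp := by
  classical
  intro g
  rw [MonoidAlgebra.of_apply, MonoidAlgebra.coeff_single, Finsupp.single_apply]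
  split_ifs
  · exact memLocalRing_one hMp
  · exact memLocalRing_zero hMp

theorem isJ_natCast_mul {p : ℕ} (hM : IsPModular p M) {a : MonoidAlgebra ℂ K}
    (ha : a ∈ intSubring M (isPrime_of_isPModular hM)) :
    IsJ M ((p : MonoidAlgebra ℂ K) * a) := fun k => by
  have hMp := isPrime_of_isPModular hM
  rw [← nsmul_eq_mul, ← Nat.cast_smul_eq_nsmul ℂ, MonoidAlgebra.coeff_smul]
  exact memLocalIdeal_mul_right hMp (memLocalIdeal_natCast_of_dvd hM (dvd_refl p)) (ha k)

/-- The subgroup of the `q` with `z * q ≡ z` modulo the local ideal. -/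
def stab [Finite K] (M : Ideal AlgInt) (hMp : M.IsPrime) (z : MonoidAlgebra ℂ K) : Subgroup K where
  carrier := {q | IsJ M (z * MonoidAlgebra.of ℂ K q - z)}
  one_mem' := by
    show IsJ M (z * MonoidAlgebra.of ℂ K 1 - z)
    rw [map_one, mul_one, sub_self]
    exact isJ_zero hMp
  mul_mem' := by
    intro q q' hq hq'
    show IsJ M (z * MonoidAlgebra.of ℂ K (q * q') - z)
    have h : z * MonoidAlgebra.of ℂ K (q * q') - z
        = (z * MonoidAlgebra.of ℂ K q - z) * MonoidAlgebra.of ℂ K q'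
          + (z * MonoidAlgebra.of ℂ K q' - z) := by
      rw [map_mul]; noncomm_ring
    rw [h]
    exact isJ_add hMp (isJ_mul_right hMp hq (of_mem_int hMp q')) hq'
  inv_mem' := by
    intro q hq
    show IsJ M (z * MonoidAlgebra.of ℂ K q⁻¹ - z)
    have h : z * MonoidAlgebra.of ℂ K q⁻¹ - z
        = -((z * MonoidAlgebra.of ℂ K q - z) * MonoidAlgebra.of ℂ K q⁻¹) := by
      have h1 : MonoidAlgebra.of ℂ K q * MonoidAlgebra.of ℂ K q⁻¹ = 1 := by
        rw [← map_mul, mul_inv_cancel, map_one]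
      rw [sub_mul, mul_assoc, h1, mul_one, neg_sub]
    rw [h]
    exact isJ_neg (isJ_mul_right hMp hq (of_mem_int hMp q⁻¹))

theorem mem_stab [Finite K] (hMp : M.IsPrime) (z : MonoidAlgebra ℂ K) (q : K) :
    q ∈ stab M hMp z ↔ IsJ M (z * MonoidAlgebra.of ℂ K q - z) := Iff.rfl

/-- Modulo `p`, `(t - 1) ^ p` is `t ^ p - 1`. -/
theorem of_sub_one_pow {p : ℕ} [Fact p.Prime] (hM : IsPModular p M) (t : K) :
    ∃ r ∈ intSubring M (isPrime_of_isPModular hM),
      (MonoidAlgebra.of ℂ K t - 1) ^ p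
        = MonoidAlgebra.of ℂ K (t ^ p) - 1 + (p : MonoidAlgebra ℂ K) * r := by
  classical
  have hMp := isPrime_of_isPModular hM
  have hp : p.Prime := Fact.out
  have hneg : ∃ e ∈ intSubring M hMp,
      ((-1 : MonoidAlgebra ℂ K)) ^ p = -1 + (p : MonoidAlgebra ℂ K) * e := by
    rcases hp.eq_two_or_odd' with h2 | hodd
    · refine ⟨1, one_mem _, ?_⟩
      rw [h2]; norm_num
    · refine ⟨0, zero_mem _, ?_⟩
      rw [hodd.neg_one_pow]; simp
  obtain ⟨e, he, hee⟩ := hneg
  have hcomm : Commute (MonoidAlgebra.of ℂ K t) (-1 : MonoidAlgebra ℂ K) :=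
    (Commute.one_right _).neg_right
  have h1 := hcomm.add_pow_prime_eq' hp
  refine ⟨e + ∑ k ∈ Finset.Ioo 0 p, MonoidAlgebra.of ℂ K t ^ k * (-1 : MonoidAlgebra ℂ K) ^ (p - k)
      * ((p.choose k / p : ℕ) : MonoidAlgebra ℂ K), ?_, ?_⟩
  · refine add_mem he (sum_mem fun k _ => ?_)
    exact mul_mem (mul_mem (pow_mem (of_mem_int hMp t) _) (pow_mem (neg_mem (one_mem _)) _))
      (natCast_mem _ _)
  · rw [sub_eq_add_neg, h1, hee, ← map_pow, mul_add]
    abel

/-- One step: adjoining to `Q'` an element `t` normalizing it with `t ^ p ∈ Q'`. -/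
theorem stab_step [Finite K] {p : ℕ} [Fact p.Prime] (hM : IsPModular p M)
    (z : MonoidAlgebra ℂ K) (hz : z ∈ intSubring M (isPrime_of_isPModular hM))
    (Q' : Subgroup K) (t : K) (hnorm : ∀ q ∈ Q', t * q * t⁻¹ ∈ Q') (htp : t ^ p ∈ Q')
    (hQ' : Q' ≤ stab M (isPrime_of_isPModular hM) z) (hz0 : ¬ IsJ M z) :
    ∃ j : ℕ, ¬ IsJ M (z * (MonoidAlgebra.of ℂ K t - 1) ^ j) ∧
      Q' ≤ stab M (isPrime_of_isPModular hM) (z * (MonoidAlgebra.of ℂ K t - 1) ^ j) ∧
      t ∈ stab M (isPrime_of_isPModular hM) (z * (MonoidAlgebra.of ℂ K t - 1) ^ j) := by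
  classical
  have hMp := isPrime_of_isPModular hM
  set a : MonoidAlgebra ℂ K := MonoidAlgebra.of ℂ K t - 1 with ha
  have hinv1 : ∀ z' : MonoidAlgebra ℂ K, Q' ≤ stab M hMp z' → Q' ≤ stab M hMp (z' * a) := by
    intro z' h q hq
    show IsJ M (z' * a * MonoidAlgebra.of ℂ K q - z' * a)
    have h0 : MonoidAlgebra.of ℂ K (t * q * t⁻¹) * MonoidAlgebra.of ℂ K t
        = MonoidAlgebra.of ℂ K t * MonoidAlgebra.of ℂ K q := by
      rw [← map_mul, ← map_mul]; congr 1; group
    have h1 : z' * a * MonoidAlgebra.of ℂ K q - z' * a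
        = (z' * MonoidAlgebra.of ℂ K (t * q * t⁻¹) - z') * MonoidAlgebra.of ℂ K t
          - (z' * MonoidAlgebra.of ℂ K q - z') := by
      rw [sub_mul, mul_assoc z' (MonoidAlgebra.of ℂ K (t * q * t⁻¹)), h0, ha]
      noncomm_ring
    rw [h1]
    exact isJ_sub hMp (isJ_mul_right hMp (h (hnorm q hq)) (of_mem_int hMp t)) (h hq)
  have hinv : ∀ j : ℕ, Q' ≤ stab M hMp (z * a ^ j) := by
    intro j
    induction j with
    | zero => simpa using hQ'
    | succ j ih =>
      rw [pow_succ, ← mul_assoc]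
      exact hinv1 _ ih
  have hzap : IsJ M (z * a ^ p) := by
    obtain ⟨r, hr, hrr⟩ := of_sub_one_pow hM t
    rw [hrr]
    have h2 : z * (MonoidAlgebra.of ℂ K (t ^ p) - 1 + (p : MonoidAlgebra ℂ K) * r)
        = (z * MonoidAlgebra.of ℂ K (t ^ p) - z) + (p : MonoidAlgebra ℂ K) * (z * r) := by
      have h3 : z * ((p : MonoidAlgebra ℂ K) * r) = (p : MonoidAlgebra ℂ K) * (z * r) := by
        rw [← mul_assoc, (Nat.cast_commute p z).eq.symm, mul_assoc]
      rw [mul_add, h3, mul_sub, mul_one]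
    rw [h2]
    exact isJ_add hMp (hQ' htp) (isJ_natCast_mul hM (mul_mem hz hr))
  have hex : ∃ j, ¬ IsJ M (z * a ^ j) ∧ IsJ M (z * a ^ (j + 1)) := by
    by_contra hcon
    push Not at hcon
    have hall : ∀ j, ¬ IsJ M (z * a ^ j) := by
      intro j
      induction j with
      | zero => simpa using hz0
      | succ j ih => exact hcon j ih
    exact hall p hzap
  obtain ⟨j, hj1, hj2⟩ := hex
  refine ⟨j, hj1, hinv j, ?_⟩
  show IsJ M (z * a ^ j * MonoidAlgebra.of ℂ K t - z * a ^ j)
  have h4 : z * a ^ j * MonoidAlgebra.of ℂ K t - z * a ^ j = z * a ^ (j + 1) := by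
    rw [pow_succ, ← mul_assoc, ha, mul_sub, mul_one]
  rw [h4]
  exact hj2

/-- In a `p`-group `Q`, a proper subgroup `Q'` has an element `t ∉ Q'` of `Q` normalizing it
with `t ^ p ∈ Q'`. -/
theorem exists_normalizing [Finite K] {p : ℕ} [Fact p.Prime] (Q Q' : Subgroup K)
    (hQ : IsPGroup p Q) (hlt : Q' < Q) :
    ∃ t ∈ Q, (∀ q ∈ Q', t * q * t⁻¹ ∈ Q') ∧ t ∉ Q' ∧ t ^ p ∈ Q' := by
  classical
  have hnil : Group.IsNilpotent Q := hQ.isNilpotent
  have hnc : NormalizerCondition Q := Group.normalizerCondition_of_isNilpotent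
  have hlt' : Q'.subgroupOf Q < ⊤ := by
    rw [lt_top_iff_ne_top]
    intro h
    rw [Subgroup.subgroupOf_eq_top] at h
    exact (not_le_of_gt hlt) h
  have h2 := hnc _ hlt'
  obtain ⟨t₀, ht₀n, ht₀⟩ := SetLike.exists_of_lt h2
  obtain ⟨m, hm⟩ := hQ t₀
  have hexk : ∃ k, t₀ ^ p ^ k ∈ Q'.subgroupOf Q := ⟨m, by rw [hm]; exact one_mem _⟩
  have hk := Nat.find_spec hexk
  have hk0 : Nat.find hexk ≠ 0 := by
    intro h0
    rw [h0, pow_zero, pow_one] at hk
    exact ht₀ hk
  obtain ⟨k', hk'⟩ := Nat.exists_eq_succ_of_ne_zero hk0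
  have hmin : t₀ ^ p ^ k' ∉ Q'.subgroupOf Q := Nat.find_min hexk (by omega)
  refine ⟨((t₀ ^ p ^ k' : Q) : K), SetLike.coe_mem _, ?_, ?_, ?_⟩
  · intro q hq
    have hqQ : q ∈ Q := hlt.le hq
    have hn : t₀ ^ p ^ k' ∈ Subgroup.normalizer (Q'.subgroupOf Q : Set Q) := pow_mem ht₀n _
    have h3 := (Subgroup.mem_normalizer_iff.mp hn ⟨q, hqQ⟩).mp
      (by rw [Subgroup.mem_subgroupOf]; exact hq)
    rw [Subgroup.mem_subgroupOf] at h3
    simpa using h3
  · intro h
    apply hmin
    rw [Subgroup.mem_subgroupOf]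
    exact h
  · have h4 : (t₀ ^ p ^ k') ^ p = t₀ ^ p ^ Nat.find hexk := by
      rw [← pow_mul, ← pow_succ, hk']
    have h5 : (t₀ ^ p ^ k') ^ p ∈ Q'.subgroupOf Q := by rw [h4]; exact hk
    rw [Subgroup.mem_subgroupOf] at h5
    simpa using h5

/-- For a `p`-subgroup `Q` and an integral `x ≢ 0` there is an integral `c` with `x * c ≢ 0`
right `Q`-invariant modulo the local ideal. -/
theorem exists_invariant [Finite K] {p : ℕ} [Fact p.Prime] (hM : IsPModular p M)
    (x : MonoidAlgebra ℂ K) (hx : x ∈ intSubring M (isPrime_of_isPModular hM))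
    (hx0 : ¬ IsJ M x) (Q : Subgroup K) (hQ : IsPGroup p Q) :
    ∃ c ∈ intSubring M (isPrime_of_isPModular hM), ¬ IsJ M (x * c) ∧
      Q ≤ stab M (isPrime_of_isPModular hM) (x * c) := by
  classical
  have hMp := isPrime_of_isPModular hM
  let good : MonoidAlgebra ℂ K → Prop := fun c => c ∈ intSubring M hMp ∧ ¬ IsJ M (x * c)
  let f : MonoidAlgebra ℂ K → ℕ := fun c => Nat.card (stab M hMp (x * c) ⊓ Q : Subgroup K)
  have hbdd : ∀ c, f c ≤ Nat.card K := fun c => Subgroup.card_le_card_group _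
  obtain ⟨c, hc, hmax⟩ : ∃ c, good c ∧ ∀ c', good c' → f c' ≤ f c := by
    let S : Set ℕ := {n | ∃ c, good c ∧ f c = n}
    have hS : S.Nonempty := ⟨f 1, 1, ⟨one_mem _, by simpa using hx0⟩, rfl⟩
    have hSb : BddAbove S := ⟨Nat.card K, by rintro n ⟨c, -, rfl⟩; exact hbdd c⟩
    obtain ⟨c, hc, hcn⟩ := Nat.sSup_mem hS hSb
    exact ⟨c, hc, fun c' hc' => by rw [hcn]; exact le_csSup hSb ⟨c', hc', rfl⟩⟩
  refine ⟨c, hc.1, hc.2, ?_⟩
  by_contra hnot
  have hlt : stab M hMp (x * c) ⊓ Q < Q := by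
    refine lt_of_le_of_ne inf_le_right (fun h => hnot ?_)
    rw [← h]
    exact inf_le_left
  obtain ⟨t, htQ, htn, htnot, htp⟩ := exists_normalizing Q _ hQ hlt
  obtain ⟨j, hj1, hj2, hj3⟩ := stab_step hM (x * c) (mul_mem hx hc.1) _ t htn htp inf_le_left hc.2
  have hgood : good (c * (MonoidAlgebra.of ℂ K t - 1) ^ j) :=
    ⟨mul_mem hc.1 (pow_mem (sub_mem (of_mem_int hMp t) (one_mem _)) _), by rwa [← mul_assoc]⟩
  have h1 := hmax _ hgood
  have hle : stab M hMp (x * c) ⊓ Q ≤ stab M hMp (x * (c * (MonoidAlgebra.of ℂ K t - 1) ^ j)) ⊓ Q := by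
    rw [← mul_assoc]
    exact le_inf hj2 inf_le_right
  have heq := Subgroup.eq_of_le_of_card_ge hle h1
  apply htnot
  rw [heq, ← mul_assoc]
  exact ⟨hj3, htQ⟩

/-- A right `Q`-invariant integral element is `≡ y * (sum of Q)`. -/
theorem exists_eq_mul_sum [Finite K] (hMp : M.IsPrime) (Q : Subgroup K) [Fintype Q]
    (z : MonoidAlgebra ℂ K) (hz : z ∈ intSubring M hMp) (hQ : Q ≤ stab M hMp z) :
    ∃ y ∈ intSubring M hMp, IsJ M (z - y * ∑ q : Q, MonoidAlgebra.of ℂ K (q : K)) := by
  classical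
  let rep : K → K := fun n => Quotient.out (QuotientGroup.mk n : K ⧸ Q)
  have hrep : ∀ n, (rep n)⁻¹ * n ∈ Q := by
    intro n
    have h : (QuotientGroup.mk (rep n) : K ⧸ Q) = QuotientGroup.mk n := QuotientGroup.out_eq' _
    exact QuotientGroup.eq.mp h
  have hrep2 : ∀ (n q : K), q ∈ Q → rep (n * q) = rep n := by
    intro n q hq
    show Quotient.out (QuotientGroup.mk (n * q) : K ⧸ Q) = Quotient.out (QuotientGroup.mk n : K ⧸ Q)
    rw [QuotientGroup.mk_mul_of_mem n hq]
  let y : MonoidAlgebra ℂ K := ofFun (fun n => if n = rep n then z.coeff n else 0)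
  refine ⟨y, ?_, ?_⟩
  · intro n
    rw [coeff_ofFun]
    split_ifs
    · exact hz n
    · exact memLocalRing_zero hMp
  · intro n
    let q₀ : Q := ⟨(rep n)⁻¹ * n, hrep n⟩
    have h1 : (y * ∑ q : Q, MonoidAlgebra.of ℂ K (q : K)).coeff n = z.coeff (rep n) := by
      rw [Finset.mul_sum, MonoidAlgebra.coeff_sum, Finsupp.finsetSum_apply]
      rw [Finset.sum_eq_single q₀]
      · rw [MonoidAlgebra.of_apply, MonoidAlgebra.coeff_mul_single_apply, mul_one, coeff_ofFun]
        have h2 : n * ((q₀ : Q) : K)⁻¹ = rep n := by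
          show n * ((rep n)⁻¹ * n)⁻¹ = rep n
          group
        rw [h2, if_pos]
        have h3 := hrep2 n ((q₀ : K)⁻¹) (Q.inv_mem q₀.2)
        rw [h2] at h3
        exact h3.symm
      · intro q _ hq
        rw [MonoidAlgebra.of_apply, MonoidAlgebra.coeff_mul_single_apply, mul_one, coeff_ofFun]
        rw [if_neg]
        intro h
        apply hq
        have h3 := hrep2 n ((q : K)⁻¹) (Q.inv_mem q.2)
        rw [h3] at h
        apply Subtype.ext
        show (q : K) = (rep n)⁻¹ * n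
        rw [← h]
        group
      · intro h
        exact absurd (Finset.mem_univ _) h
    have h4 : z.coeff (rep n) = (z * MonoidAlgebra.of ℂ K (q₀ : K)).coeff n := by
      rw [MonoidAlgebra.of_apply, MonoidAlgebra.coeff_mul_single_apply, mul_one]
      congr 1
      show rep n = n * ((rep n)⁻¹ * n)⁻¹
      group
    rw [MonoidAlgebra.coeff_sub, Finsupp.sub_apply, h1, h4]
    have h5 := hQ q₀.2 n
    rw [MonoidAlgebra.coeff_sub, Finsupp.sub_apply] at h5
    exact memLocalIdeal_sub_comm h5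

/-- A central integral `w`, idempotent modulo the local ideal and `≢ 0`, is not killed by the
sum of a `p`-subgroup. -/
theorem exists_coeff_sum_not_mem [Finite K] {p : ℕ} [Fact p.Prime] (hM : IsPModular p M)
    (w : MonoidAlgebra ℂ K) (hwc : w ∈ Zc K) (hw : w ∈ intSubring M (isPrime_of_isPModular hM))
    (hidem : IsJ M (w * w - w)) (hw0 : ¬ IsJ M w) (Q : Subgroup K) [Fintype Q]
    (hQ : IsPGroup p Q) :
    ∃ k : K, ¬ MemLocalIdeal M (∑ q : Q, w.coeff (k * (q : K))) := by
  classical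
  have hMp := isPrime_of_isPModular hM
  by_contra hcon
  push Not at hcon
  have hwQ : IsJ M (w * ∑ q : Q, MonoidAlgebra.of ℂ K (q : K)) := by
    intro k
    rw [Finset.mul_sum, MonoidAlgebra.coeff_sum, Finsupp.finsetSum_apply]
    have h1 : ∑ q : Q, (w * MonoidAlgebra.of ℂ K (q : K)).coeff k
        = ∑ q : Q, w.coeff (k * (q : K)) := by
      rw [← Equiv.sum_comp (Equiv.inv Q)]
      refine Finset.sum_congr rfl fun q _ => ?_
      rw [MonoidAlgebra.of_apply, MonoidAlgebra.coeff_mul_single_apply, mul_one]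
      simp
    rw [h1]
    exact hcon k
  obtain ⟨c, hc, hc0, hcQ⟩ := exists_invariant hM w hw hw0 Q hQ
  obtain ⟨y, hy, hyz⟩ := exists_eq_mul_sum hMp Q (w * c) (mul_mem hw hc) hcQ
  apply hc0
  have hcomm : y * w = w * y := Subalgebra.mem_center_iff.mp hwc y
  have h2 : w * c = -((w * w - w) * c)
      + w * (w * c - y * ∑ q : Q, MonoidAlgebra.of ℂ K (q : K))
      + y * (w * ∑ q : Q, MonoidAlgebra.of ℂ K (q : K)) := by
    rw [← mul_assoc y w, hcomm]
    noncomm_ring
  rw [h2]
  exact isJ_add hMp (isJ_add hMp (isJ_neg (isJ_mul_right hMp hidem hc)) (isJ_mul_left hMp hw hyz))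
    (isJ_mul_left hMp hy hwQ)

/-- Fixed point congruence: a `p`-group `S` acts on the finite set `X`; an invariant integral
function lying in the local ideal at all fixed points has its sum in the local ideal. -/
theorem sum_memLocalIdeal_of_fixed {p : ℕ} [Fact p.Prime] (hM : IsPModular p M)
    {S : Type*} [Group S] [Finite S] (hS : IsPGroup p S) {X : Type*} [Fintype X] [MulAction S X]
    (f : X → ℂ) (hint : ∀ x, MemLocalRing M (f x)) (hinv : ∀ (s : S) (x : X), f (s • x) = f x)
    (hfix : ∀ x : X, (∀ s : S, s • x = x) → MemLocalIdeal M (f x)) :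
    MemLocalIdeal M (∑ x, f x) := by
  classical
  have hMp := isPrime_of_isPModular hM
  have hp : p.Prime := Fact.out
  rw [← Finset.sum_fiberwise (s := Finset.univ)
    (g := fun x => (Quotient.mk'' x : MulAction.orbitRel.Quotient S X)) (f := f)]
  apply memLocalIdeal_sum hMp
  intro ω _
  induction ω using Quotient.inductionOn' with
  | h x₀ =>
  have hmem : ∀ x : X, (Quotient.mk'' x : MulAction.orbitRel.Quotient S X) = Quotient.mk'' x₀ ↔
      x ∈ MulAction.orbit S x₀ := by
    intro x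
    rw [Quotient.eq'']
    exact MulAction.orbitRel_apply
  have hconst : ∀ x ∈ Finset.univ.filter (fun x : X =>
      (Quotient.mk'' x : MulAction.orbitRel.Quotient S X) = Quotient.mk'' x₀), f x = f x₀ := by
    intro x hx
    rw [Finset.mem_filter] at hx
    obtain ⟨s, rfl⟩ := (hmem x).mp hx.2
    exact hinv s x₀
  rw [Finset.sum_congr rfl hconst, Finset.sum_const, nsmul_eq_mul]
  have hcard : (Finset.univ.filter (fun x : X =>
      (Quotient.mk'' x : MulAction.orbitRel.Quotient S X) = Quotient.mk'' x₀)).card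
      = Nat.card (MulAction.orbit S x₀) := by
    rw [Nat.card_eq_fintype_card, Fintype.card_subtype]
    congr 1
    ext x
    simp only [Finset.mem_filter, Finset.mem_univ, true_and]
    exact hmem x
  rw [hcard]
  obtain ⟨n, hn⟩ := hS.card_orbit x₀
  rw [hn]
  rcases Nat.eq_zero_or_pos n with h0 | hpos
  · rw [h0, pow_zero] at hn
    rw [h0, pow_zero, Nat.cast_one, one_mul]
    apply hfix
    intro s
    have h1 : s • x₀ ∈ MulAction.orbit S x₀ := MulAction.mem_orbit _ _
    have h2 : x₀ ∈ MulAction.orbit S x₀ := MulAction.mem_orbit_self _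
    have h3 := Nat.card_eq_one_iff_unique.mp hn
    have h4 := h3.1.elim ⟨s • x₀, h1⟩ ⟨x₀, h2⟩
    exact congrArg Subtype.val h4
  · exact memLocalIdeal_mul_right hMp
      (memLocalIdeal_natCast_of_dvd hM (dvd_pow_self p (Nat.pos_iff_ne_zero.mp hpos))) (hint x₀)

/-- For a central integral `w`, idempotent modulo the local ideal and `≢ 0`, and a
`p`-subgroup `Q` there is `y` with `w.coeff y` outside the local ideal such that
`Q ∩ y Q y⁻¹` centralizes `y`. -/
theorem exists_fixed_coeff [Finite K] {p : ℕ} [Fact p.Prime] (hM : IsPModular p M)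
    (w : MonoidAlgebra ℂ K) (hwc : w ∈ Zc K) (hw : w ∈ intSubring M (isPrime_of_isPModular hM))
    (hidem : IsJ M (w * w - w)) (hw0 : ¬ IsJ M w) (Q : Subgroup K) (hQ : IsPGroup p Q) :
    ∃ y : K, ¬ MemLocalIdeal M (w.coeff y) ∧ ∀ s ∈ Q, y⁻¹ * s * y ∈ Q → s * y = y * s := by
  classical
  have hMp := isPrime_of_isPModular hM
  cases nonempty_fintype K
  obtain ⟨k, hk⟩ := exists_coeff_sum_not_mem hM w hwc hw hidem hw0 Q hQ
  let S : Subgroup K := Q ⊓ Q.comap (MulAut.conj k⁻¹).toMonoidHom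
  have hSmem : ∀ s : K, s ∈ S ↔ s ∈ Q ∧ k⁻¹ * s * k ∈ Q := by
    intro s
    simp [S, Subgroup.mem_inf, Subgroup.mem_comap]
  letI : MulAction S Q :=
    { smul := fun s q => ⟨k⁻¹ * (s : K) * k * (q : K) * (s : K)⁻¹,
        Q.mul_mem (Q.mul_mem ((hSmem s).mp s.2).2 q.2) (Q.inv_mem ((hSmem s).mp s.2).1)⟩
      one_smul := fun q => by
        apply Subtype.ext
        show k⁻¹ * ((1 : S) : K) * k * (q : K) * ((1 : S) : K)⁻¹ = (q : K)
        simp
      mul_smul := fun s s' q => by
        apply Subtype.ext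
        show k⁻¹ * ((s * s' : S) : K) * k * (q : K) * ((s * s' : S) : K)⁻¹
          = k⁻¹ * (s : K) * k * (k⁻¹ * (s' : K) * k * (q : K) * (s' : K)⁻¹) * (s : K)⁻¹
        rw [Subgroup.coe_mul]
        group }
  have hsmul : ∀ (s : S) (q : Q), ((s • q : Q) : K) = k⁻¹ * (s : K) * k * (q : K) * (s : K)⁻¹ :=
    fun _ _ => rfl
  have hSp : IsPGroup p S := hQ.to_le inf_le_left
  by_contra hcon
  push Not at hcon
  apply hk
  apply sum_memLocalIdeal_of_fixed hM hSp (fun q : Q => w.coeff (k * (q : K)))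
  · intro q
    exact hw _
  · intro s q
    show w.coeff (k * ((s • q : Q) : K)) = w.coeff (k * (q : K))
    rw [hsmul]
    have h1 := (mem_center_iff w).mp hwc (s : K) (k * (q : K))
    rw [← h1]
    congr 1
    group
  · intro q hq
    by_contra hq0
    obtain ⟨s, hsQ, hs1, hs2⟩ := hcon (k * (q : K)) hq0
    apply hs2
    have hsS : s ∈ S := by
      rw [hSmem]
      refine ⟨hsQ, ?_⟩
      have h2 : k⁻¹ * s * k = (q : K) * ((k * (q : K))⁻¹ * s * (k * (q : K))) * (q : K)⁻¹ := by
        group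
      rw [h2]
      exact Q.mul_mem (Q.mul_mem q.2 hs1) (Q.inv_mem q.2)
    have h3 := congrArg Subtype.val (hq ⟨s, hsS⟩)
    rw [hsmul] at h3
    have h4 : k⁻¹ * s * k * (q : K) * s⁻¹ = (q : K) := h3
    calc s * (k * (q : K)) = k * (k⁻¹ * s * k * (q : K) * s⁻¹) * s := by group
      _ = k * (q : K) * s := by rw [h4]

/-- **Green.** A defect group `D` of a block lying in the Sylow `p`-subgroup `P` is
`P ∩ x P x⁻¹` for a `p`-regular `x` such that `D` is a Sylow `p`-subgroup of `C_G(x)`. -/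
theorem green {G : Type u} [Group G] [Finite G] (p : ℕ) [Fact p.Prime] (M : Ideal AlgInt)
    (hM : IsPModular p M) (B : Set (IrrCharacter G)) (hB : IsPBlock M B) (D : Subgroup G)
    (hD : IsDefectGroup p M B D) (P : Sylow p G) (hDP : D ≤ P) :
    ∃ x : G, ¬ p ∣ orderOf x ∧
      (∃ S : Sylow p (Subgroup.centralizer ({x} : Set G)),
        (S : Subgroup (Subgroup.centralizer ({x} : Set G))).map
          (Subgroup.centralizer ({x} : Set G)).subtype = D) ∧
      (P : Subgroup G) ⊓ (P : Subgroup G).map (MulAut.conj x).toMonoidHom = D := by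
  classical
  have hMp := isPrime_of_isPModular hM
  have hp : p.Prime := Fact.out
  have hcardD := Cfsg.Agent.Lib.Helper16.Defect.card_defectGroup p hM B hB D hD
  have hDp : IsPGroup p D := IsPGroup.of_card hcardD
  obtain ⟨g₀, hcls, S₀, hDS₀⟩ := hD
  have hg₀ : g₀ ∈ Subgroup.centralizer (D : Set G) := by
    rw [Subgroup.mem_centralizer_iff]
    intro u hu
    rw [hDS₀] at hu
    obtain ⟨v, -, rfl⟩ := hu
    have := v.2
    rw [Subgroup.mem_centralizer_iff] at this
    exact (this g₀ rfl).symm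
  set N : Subgroup G := Subgroup.normalizer (D : Set G) with hN
  have hCN : Subgroup.centralizer (D : Set G) ≤ N := Subgroup.centralizer_le_normalizer _
  set w : MonoidAlgebra ℂ N := Cfsg.Agent.Lib.Helper16.Brauer.br D N (blockIdem B) with hw
  have hwc : w ∈ Zc N :=
    Cfsg.Agent.Lib.Helper16.Brauer.br_mem_center D N le_rfl _ (blockIdem_mem_center B)
  have hBint : ∀ g : G, MemLocalRing M ((blockIdem B).coeff g) :=
    (mem_intSubring M hMp).mp (blockIdem_mem_intSubring hMp B hB)
  have hwint : w ∈ intSubring M hMp := fun h =>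
    Cfsg.Agent.Lib.Helper16.Brauer.coeff_br_memLocalRing hMp D N _ hBint h
  have hidem : IsJ M (w * w - w) := by
    intro h
    have h1 := Cfsg.Agent.Lib.Helper16.Brauer.br_mul_sub hM D N hDp hCN (blockIdem B) (blockIdem B)
      (blockIdem_mem_center B) (blockIdem_mem_center B) hBint hBint h
    rw [Cfsg.Agent.Lib.Helper16.Normal.blockIdem_mul_self] at h1
    rw [MonoidAlgebra.coeff_sub, Finsupp.sub_apply]
    exact memLocalIdeal_sub_comm h1
  have hw0 : ¬ IsJ M w := by
    intro h
    have h1 := h ⟨g₀, hCN hg₀⟩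
    rw [hw, Cfsg.Agent.Lib.Helper16.Brauer.coeff_br, if_pos hg₀, coeff_blockIdem] at h1
    exact hcls.2.1 h1
  have hQ : IsPGroup p ((P : Subgroup G).subgroupOf N) := P.isPGroup'.comap_subtype
  obtain ⟨y, hy, hyQ⟩ := exists_fixed_coeff hM w hwc hwint hidem hw0 _ hQ
  rw [hw, Cfsg.Agent.Lib.Helper16.Brauer.coeff_br] at hy
  have hyC : (y : G) ∈ Subgroup.centralizer (D : Set G) := by
    by_contra h
    rw [if_neg h] at hy
    exact hy (memLocalIdeal_zero hMp)
  rw [if_pos hyC, coeff_blockIdem] at hy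
  -- the element
  set x : G := (y : G) with hx
  have hxreg : ¬ p ∣ orderOf x := by
    intro h
    rw [Cfsg.Agent.Lib.Helper77.OsimaVanish.blockCoeff_eq_zero_of_singular p M hM B hB x h] at hy
    exact hy (memLocalIdeal_zero hMp)
  set C : Subgroup G := Subgroup.centralizer ({x} : Set G) with hC
  have hle : (Nat.card C).factorization p ≤ blockDefect p B := by
    by_contra h
    exact hy (Cfsg.Agent.Lib.Helper75.NumMinMax.memLocalIdeal_blockCoeff_of_lt p M hM B hB x
      (not_le.mp h))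
  have hDC : D ≤ C := by
    intro u hu
    rw [hC, Subgroup.mem_centralizer_iff]
    intro v hv
    rw [Set.mem_singleton_iff] at hv
    subst hv
    rw [Subgroup.mem_centralizer_iff] at hyC
    exact (hyC u hu).symm
  have hcardC : Nat.card C ≠ 0 := Nat.card_pos.ne'
  have hge : blockDefect p B ≤ (Nat.card C).factorization p := by
    rw [← hp.pow_dvd_iff_le_factorization hcardC, ← hcardD]
    have h1 : Nat.card (D.subgroupOf C) = Nat.card D :=
      Nat.card_congr (Subgroup.subgroupOfEquivOfLe hDC).toEquiv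
    rw [← h1]
    exact Subgroup.card_subgroup_dvd_card _
  have hdC : (Nat.card C).factorization p = blockDefect p B := le_antisymm hle hge
  -- p-subgroups of C containing D are D
  have hmaxD : ∀ U : Subgroup G, IsPGroup p U → U ≤ C → D ≤ U → U = D := by
    intro U hU hUC hDU
    symm
    apply Subgroup.eq_of_le_of_card_ge hDU
    obtain ⟨n, hn⟩ := IsPGroup.iff_card.mp hU
    have h1 : Nat.card (U.subgroupOf C) = Nat.card U :=
      Nat.card_congr (Subgroup.subgroupOfEquivOfLe hUC).toEquiv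
    have h2 : p ^ n ∣ Nat.card C := by
      rw [← hn, ← h1]
      exact Subgroup.card_subgroup_dvd_card _
    have h3 : n ≤ blockDefect p B := by
      rw [← hdC]
      exact (hp.pow_dvd_iff_le_factorization hcardC).mp h2
    rw [hn, hcardD]
    exact Nat.pow_le_pow_right hp.pos h3
  refine ⟨x, hxreg, ?_, ?_⟩
  · have hcard : Nat.card (D.subgroupOf C) = p ^ (Nat.card C).factorization p := by
      rw [hdC, ← hcardD]
      exact Nat.card_congr (Subgroup.subgroupOfEquivOfLe hDC).toEquiv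
    refine ⟨Sylow.ofCard (D.subgroupOf C) hcard, ?_⟩
    rw [Sylow.coe_ofCard]
    exact Subgroup.map_subgroupOf_eq_of_le hDC
  · set T : Subgroup G := (P : Subgroup G) ⊓ (P : Subgroup G).map (MulAut.conj x).toMonoidHom
      with hT
    have hTp : IsPGroup p T := P.isPGroup'.to_le inf_le_left
    have hDT : D ≤ T := by
      refine le_inf hDP ?_
      intro u hu
      refine ⟨u, hDP hu, ?_⟩
      rw [Subgroup.mem_centralizer_iff] at hyC
      have := hyC u hu
      simp only [MulEquiv.coe_toMonoidHom, MulAut.conj_apply]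
      rw [← this, mul_inv_cancel_right]
    -- elements of T normalizing D centralize x
    have hcent : T ⊓ N ≤ C := by
      intro t ht
      have htP : t ∈ (P : Subgroup G) := ht.1.1
      obtain ⟨v, hvP, hv⟩ := ht.1.2
      have htN : t ∈ N := ht.2
      have h1 := hyQ ⟨t, htN⟩ (by rw [Subgroup.mem_subgroupOf]; exact htP) (by
        rw [Subgroup.mem_subgroupOf]
        simp only [Subgroup.coe_mul, Subgroup.coe_inv]
        have h2 : (y : G)⁻¹ * t * (y : G) = v := by
          rw [← hv]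
          simp only [MulEquiv.coe_toMonoidHom, MulAut.conj_apply]
          rw [hx]
          group
        rw [h2]
        exact hvP)
      have h3 := congrArg Subtype.val h1
      simp only [Subgroup.coe_mul] at h3
      rw [hC, Subgroup.mem_centralizer_iff]
      intro v' hv'
      rw [Set.mem_singleton_iff] at hv'
      subst hv'
      exact h3.symm
    have hTN : T ⊓ N = D := by
      apply hmaxD _ (hTp.to_le inf_le_left) hcent
      exact le_inf hDT (Subgroup.le_normalizer)
    -- normalizer condition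
    by_contra hne
    have hnil : Group.IsNilpotent T := hTp.isNilpotent
    have hnc : NormalizerCondition T := Group.normalizerCondition_of_isNilpotent
    have hlt' : D.subgroupOf T < ⊤ := by
      rw [lt_top_iff_ne_top]
      intro h
      rw [Subgroup.subgroupOf_eq_top] at h
      exact hne (le_antisymm h hDT)
    have h2 := hnc _ hlt'
    rw [← Subgroup.subgroupOf_normalizer_eq hDT] at h2
    obtain ⟨t, htn, ht⟩ := SetLike.exists_of_lt h2
    apply ht
    rw [Subgroup.mem_subgroupOf] at htn ⊢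
    rw [← hTN]
    exact ⟨t.2, htn⟩

end Cfsg.Agent.Lib.CT.Green
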