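import Mathlib
import Cfsg.Prelude.Def_Blocks
import Cfsg.Prelude.Def_BrauerPairs
import Cfsg.Agent.Lib.CT.Green
import Cfsg.Agent.Lib.CT.PrincipalSection
import Cfsg.Agent.Lib.Helper16.FirstMain
import Cfsg.Agent.Lib.Helper77.BPIdem
import Cfsg.Agent.Lib.Helper77.BPStab
import Cfsg.Agent.Lib.Helper77.BPTransport
import Cfsg.Agent.Lib.Helper77.BPEquiv2
import Cfsg.Agent.Lib.Helper77.DefectClass

/-!
# The Brauer correspondence through idempotents

* `br_blockIdem_sub`: for a block `X` of `G` and its Brauer correspondent `β` in `N_G(P)` (a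
  block with defect group `P` inducing `X`), the Brauer map image of the idempotent of `X` is
  congruent to the idempotent of `β` modulo the local ideal, coefficientwise.
* `eq_of_isJ_sub`: blocks whose idempotents are congruent are equal.
* `nIso`: for `N_G(P) ≤ H`, the normalizer of `P` in `H` is isomorphic to `N_G(P)`.
* `brauer_corr`: the Brauer correspondence over any `H ⊇ N_G(P)`.
-/

set_option autoImplicit false

namespace Cfsg.Agent.Lib.CT.BrauerCorr

open Cfsg Cfsg.Agent.Lib.Helper77.LocalRing Cfsg.Agent.Lib.Helper77.CentralChar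
  Cfsg.Agent.Lib.Helper77.ClassSum Cfsg.Agent.Lib.Helper77.BlockIdem
  Cfsg.Agent.Lib.CT.Green Cfsg.Agent.Lib.Helper16.Brauer

universe u
variable {G : Type u} [Group G] {M : Ideal AlgInt}

/-- Blocks whose idempotents are congruent modulo the local ideal are equal. -/
theorem eq_of_isJ_sub [Finite G] {p : ℕ} [Fact p.Prime] (hM : IsPModular p M)
    (β₁ β₂ : Set (IrrCharacter G)) (h₁ : IsPBlock M β₁) (h₂ : IsPBlock M β₂)
    (h : IsJ M (blockIdem β₁ - blockIdem β₂)) : β₁ = β₂ := by
  classical
  have hMp := isPrime_of_isPModular hM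
  by_contra hne
  have hdisj := Cfsg.Agent.Lib.Helper77.BPStab.disjoint_of_ne hMp h₁ h₂ hne
  have h0 := Cfsg.Agent.Lib.Helper77.BPStab.blockIdem_mul_of_disjoint β₁ β₂ hdisj
  have h1 : blockIdem β₁ = blockIdem β₁ * (blockIdem β₁ - blockIdem β₂) := by
    rw [mul_sub, h0, sub_zero, Cfsg.Agent.Lib.Helper16.Normal.blockIdem_mul_self]
  have h2 : IsJ M (blockIdem β₁) := by
    rw [h1]
    exact isJ_mul_left hMp (blockIdem_mem_intSubring hMp β₁ h₁) h
  obtain ⟨g, hg⟩ := Cfsg.Agent.Lib.Helper77.DefectClass.exists_defectClass p M hM β₁ h₁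
  exact hg.2.1 (h2 g)

/-- For a block `X` of `G` and its Brauer correspondent `β` in `N_G(P)`, the Brauer map image
of the idempotent of `X` is congruent to the idempotent of `β`. -/
theorem br_blockIdem_sub [Finite G] {p : ℕ} [Fact p.Prime] (hM : IsPModular p M)
    (P : Subgroup G) (hP : IsPGroup p P) (X : Set (IrrCharacter G))
    (β : Set (IrrCharacter (Subgroup.normalizer (P : Set G))))
    (hβ : IsDefectGroup p M β (P.subgroupOf (Subgroup.normalizer (P : Set G))))
    (hind : IsInducedBlock M (Subgroup.normalizer (P : Set G)) β X) :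
    IsJ M (br P (Subgroup.normalizer (P : Set G)) (blockIdem X) - blockIdem β) := by
  classical
  have hMp := isPrime_of_isPModular hM
  have hPN : P ≤ Subgroup.normalizer (P : Set G) := Subgroup.le_normalizer
  have hCN : Subgroup.centralizer (P : Set G) ≤ Subgroup.normalizer (P : Set G) :=
    Subgroup.centralizer_le_normalizer _
  have hX : IsPBlock M X := hind.2.1
  have hβb : IsPBlock M β := hind.1
  set w := br P (Subgroup.normalizer (P : Set G)) (blockIdem X) with hw
  set e := blockIdem β with he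
  have hwc : w ∈ Zc (Subgroup.normalizer (P : Set G)) :=
    br_mem_center P _ le_rfl _ (blockIdem_mem_center X)
  have hXint : ∀ g : G, MemLocalRing M ((blockIdem X).coeff g) :=
    (mem_intSubring M hMp).mp (blockIdem_mem_intSubring hMp X hX)
  have hwint : w ∈ intSubring M hMp := fun h => coeff_br_memLocalRing hMp P _ _ hXint h
  have hidem : IsJ M (w * w - w) := by
    intro h
    have h1 := br_mul_sub hM P (Subgroup.normalizer (P : Set G)) hP hCN (blockIdem X)
      (blockIdem X) (blockIdem_mem_center X) (blockIdem_mem_center X) hXint hXint h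
    rw [Cfsg.Agent.Lib.Helper16.Normal.blockIdem_mul_self] at h1
    rw [MonoidAlgebra.coeff_sub, Finsupp.sub_apply]
    exact memLocalIdeal_sub_comm h1
  have hec : e ∈ Zc (Subgroup.normalizer (P : Set G)) := blockIdem_mem_center β
  have heint : e ∈ intSubring M hMp := blockIdem_mem_intSubring hMp β hβb
  have hee : e * e = e := Cfsg.Agent.Lib.Helper16.Normal.blockIdem_mul_self β
  -- central character values
  have hω : ∀ ξ : IrrCharacter (Subgroup.normalizer (P : Set G)),
      MemLocalIdeal M (omega (ξ : _ → ℂ) w - (if ξ ∈ β then 1 else 0)) := by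
    intro ξ
    obtain ⟨χ, hχ⟩ := exists_irr_brauer hM P _ hP hCN le_rfl ξ
    have h1 := hχ (blockIdem X) (blockIdem_mem_center X) hXint
    rw [omega_blockIdem] at h1
    have hcls : ∀ g : G, MemLocalIdeal M
        (brauerCentralChar P (Subgroup.normalizer (P : Set G)) (ξ : _ → ℂ) g
          - centralChar (χ : G → ℂ) g) := by
      intro g
      have := hχ (classSum g) (classSum_mem_center g) (classSum_mem_intSubring M hMp g)
      rwa [omega_br_classSum,
        omega_classSum _ (fun x k => Cfsg.Agent.Lib.Helper16.ZR.irr_conj_inv χ x k)] at this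
    have hbξ : IsPBlock M (blockOf M (ξ : ↥(Subgroup.normalizer (P : Set G)) → ℂ)) := ⟨ξ, rfl⟩
    have hξξ : ξ ∈ blockOf M (ξ : ↥(Subgroup.normalizer (P : Set G)) → ℂ) :=
      Cfsg.Agent.Lib.Helper77.DefectClass.self_mem_blockOf hMp ξ
    have hind' : IsInducedBlock M (Subgroup.normalizer (P : Set G))
        (blockOf M (ξ : ↥(Subgroup.normalizer (P : Set G)) → ℂ)) (blockOf M (χ : G → ℂ)) :=
      isInducedBlock_of_brauer hM P (Subgroup.normalizer (P : Set G)) hP hPN le_rfl
        (blockOf M (ξ : ↥(Subgroup.normalizer (P : Set G)) → ℂ)) hbξ ξ hξξ χ hcls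
    by_cases hξ : ξ ∈ β
    · have hbe : blockOf M (ξ : ↥(Subgroup.normalizer (P : Set G)) → ℂ) = β :=
        (Cfsg.Agent.Lib.CT.DefectZeroBlock.eq_blockOf_of_mem hMp hβb hξ).symm
      rw [hbe] at hind'
      have hXe : X = blockOf M (χ : G → ℂ) :=
        Cfsg.Agent.Lib.CT.PrincipalSection.isInducedBlock_unique hMp _ β _ _ hind hind'
      have hχX : χ ∈ X := by
        rw [hXe]
        exact Cfsg.Agent.Lib.Helper77.DefectClass.self_mem_blockOf hMp χ
      rw [if_pos hχX] at h1
      rw [if_pos hξ]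
      exact h1
    · rw [if_neg hξ]
      by_cases hχX : χ ∈ X
      · exfalso
        have hXe : blockOf M (χ : G → ℂ) = X :=
          (Cfsg.Agent.Lib.CT.DefectZeroBlock.eq_blockOf_of_mem hMp hX hχX).symm
        rw [hXe] at hind'
        have := Cfsg.Agent.Lib.Helper16.FirstMain.block_normalizer_unique p hM P X β
          _ hβ hind hind'
        apply hξ
        rw [this]
        exact Cfsg.Agent.Lib.Helper77.DefectClass.self_mem_blockOf hMp ξ
      · rw [if_neg hχX] at h1
        exact h1
  have hcomm : e * w = w * e := Subalgebra.mem_center_iff.mp hwc e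
  have h1e : (1 - e) ∈ intSubring M hMp := sub_mem (one_mem _) heint
  have h1w : (1 - w) ∈ intSubring M hMp := sub_mem (one_mem _) hwint
  have h1ec : (1 - e) ∈ Zc (Subgroup.normalizer (P : Set G)) :=
    Subalgebra.sub_mem _ (Subalgebra.one_mem _) hec
  have h1wc : (1 - w) ∈ Zc (Subgroup.normalizer (P : Set G)) :=
    Subalgebra.sub_mem _ (Subalgebra.one_mem _) hwc
  -- u₁ = w (1 - e)
  have hu1 : IsJ M (w * (1 - e)) := by
    apply Cfsg.Agent.Lib.Helper77.BPIdem.coeff_mem_of_omega_mem hMp _
      (Subalgebra.mul_mem _ hwc h1ec) (mul_mem hwint h1e)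
    · have h2 : w * (1 - e) * (w * (1 - e)) - w * (1 - e) = (w * w - w) * (1 - e) := by
        have h3 : (1 - e) * (w * (1 - e)) = w * (1 - e) := by
          have h6 : e * (w * (1 - e)) = 0 := by
            rw [← mul_assoc, hcomm, mul_assoc, mul_sub, mul_one, hee, sub_self, mul_zero]
          rw [sub_mul, one_mul, h6, sub_zero]
        rw [mul_assoc, h3, ← mul_assoc, sub_mul]
      rw [h2]
      exact isJ_mul_right hMp hidem h1e
    · intro ξ
      rw [omega_mul ξ.2 _ _ hwc, omega_sub, omega_one_irr ξ.2, omega_blockIdem]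
      have h4 := hω ξ
      by_cases hξ : ξ ∈ β
      · rw [if_pos hξ, sub_self, mul_zero]
        exact memLocalIdeal_zero hMp
      · rw [if_neg hξ, sub_zero, mul_one]
        rw [if_neg hξ, sub_zero] at h4
        exact h4
  -- u₂ = (1 - w) e
  have hu2 : IsJ M ((1 - w) * e) := by
    apply Cfsg.Agent.Lib.Helper77.BPIdem.coeff_mem_of_omega_mem hMp _
      (Subalgebra.mul_mem _ h1wc hec) (mul_mem h1w heint)
    · have h2 : (1 - w) * e * ((1 - w) * e) - (1 - w) * e = (w * w - w) * e := by
        have h3 : e * ((1 - w) * e) = (1 - w) * e := by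
          rw [sub_mul, one_mul, mul_sub, hee, ← mul_assoc, hcomm, mul_assoc, hee]
        rw [mul_assoc, h3]
        noncomm_ring
      rw [h2]
      exact isJ_mul_right hMp hidem heint
    · intro ξ
      rw [omega_mul ξ.2 _ _ h1wc, omega_sub, omega_one_irr ξ.2, omega_blockIdem]
      have h4 := hω ξ
      by_cases hξ : ξ ∈ β
      · rw [if_pos hξ, mul_one]
        rw [if_pos hξ] at h4
        exact memLocalIdeal_sub_comm h4
      · rw [if_neg hξ, mul_zero]
        exact memLocalIdeal_zero hMp
  have h5 : w - e = w * (1 - e) - (1 - w) * e := by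
    noncomm_ring
  rw [h5]
  exact isJ_sub hMp hu1 hu2

/-- Coefficient form of `br_blockIdem_sub`. -/
theorem coeff_sub_correspondent [Finite G] {p : ℕ} [Fact p.Prime] (hM : IsPModular p M)
    (P : Subgroup G) (hP : IsPGroup p P) (X : Set (IrrCharacter G))
    (β : Set (IrrCharacter (Subgroup.normalizer (P : Set G))))
    (hβ : IsDefectGroup p M β (P.subgroupOf (Subgroup.normalizer (P : Set G))))
    (hind : IsInducedBlock M (Subgroup.normalizer (P : Set G)) β X)
    (x : G) (hx : x ∈ Subgroup.centralizer (P : Set G)) :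
    MemLocalIdeal M (blockCoeff X x
      - blockCoeff β ⟨x, Subgroup.centralizer_le_normalizer _ hx⟩) := by
  classical
  have h := br_blockIdem_sub hM P hP X β hβ hind ⟨x, Subgroup.centralizer_le_normalizer _ hx⟩
  rw [MonoidAlgebra.coeff_sub, Finsupp.sub_apply, coeff_br, if_pos hx, coeff_blockIdem,
    coeff_blockIdem] at h
  exact h

/-- Two blocks with defect group `P` whose idempotents are congruent on `C_G(P)` are equal. -/
theorem eq_of_coeff_centralizer [Finite G] {p : ℕ} [Fact p.Prime] (hM : IsPModular p M)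
    (P : Subgroup G) (hP : IsPGroup p P) (X₁ X₂ : Set (IrrCharacter G))
    (hb₁ : IsPBlock M X₁) (hb₂ : IsPBlock M X₂)
    (h₁ : IsDefectGroup p M X₁ P) (h₂ : IsDefectGroup p M X₂ P)
    (h : ∀ x : G, x ∈ Subgroup.centralizer (P : Set G) →
      MemLocalIdeal M (blockCoeff X₁ x - blockCoeff X₂ x)) : X₁ = X₂ := by
  classical
  have hMp := isPrime_of_isPModular hM
  obtain ⟨β₁, hd₁, hi₁⟩ :=
    Cfsg.Agent.Lib.Helper16.FirstMain.exists_block_normalizer p hM P X₁ hb₁ h₁
  obtain ⟨β₂, hd₂, hi₂⟩ :=
    Cfsg.Agent.Lib.Helper16.FirstMain.exists_block_normalizer p hM P X₂ hb₂ h₂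
  have hA₁ := br_blockIdem_sub hM P hP X₁ β₁ hd₁ hi₁
  have hA₂ := br_blockIdem_sub hM P hP X₂ β₂ hd₂ hi₂
  have hbr : IsJ M (br P (Subgroup.normalizer (P : Set G)) (blockIdem X₁)
      - br P (Subgroup.normalizer (P : Set G)) (blockIdem X₂)) := by
    intro n
    rw [MonoidAlgebra.coeff_sub, Finsupp.sub_apply, coeff_br, coeff_br]
    by_cases hn : (n : G) ∈ Subgroup.centralizer (P : Set G)
    · rw [if_pos hn, if_pos hn, coeff_blockIdem, coeff_blockIdem]
      exact h _ hn
    · rw [if_neg hn, if_neg hn, sub_zero]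
      exact memLocalIdeal_zero hMp
  have hβ : IsJ M (blockIdem β₁ - blockIdem β₂) := by
    have h3 : blockIdem β₁ - blockIdem β₂
        = -(br P (Subgroup.normalizer (P : Set G)) (blockIdem X₁) - blockIdem β₁)
          + (br P (Subgroup.normalizer (P : Set G)) (blockIdem X₁)
            - br P (Subgroup.normalizer (P : Set G)) (blockIdem X₂))
          + (br P (Subgroup.normalizer (P : Set G)) (blockIdem X₂) - blockIdem β₂) := by
      abel
    rw [h3]
    exact isJ_add hMp (isJ_add hMp (isJ_neg hA₁) hbr) hA₂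
  have heq := eq_of_isJ_sub hM β₁ β₂ hi₁.1 hi₂.1 hβ
  subst heq
  exact Cfsg.Agent.Lib.CT.PrincipalSection.isInducedBlock_unique hMp _ β₁ _ _ hi₁ hi₂

/-- For `N_G(P) ≤ H`, the normalizer of `P` in `H` is isomorphic to `N_G(P)`. -/
def nIso (P H : Subgroup G) (hH : Subgroup.normalizer (P : Set G) ≤ H) :
    ↥(Subgroup.normalizer ((P.subgroupOf H : Subgroup H) : Set H)) ≃*
      ↥(Subgroup.normalizer (P : Set G)) where
  toFun n := ⟨((n : H) : G), by
    have h1 : (n : H) ∈ (Subgroup.normalizer (P : Set G)).subgroupOf H := by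
      rw [Subgroup.subgroupOf_normalizer_eq (Subgroup.le_normalizer.trans hH)]
      exact n.2
    exact h1⟩
  invFun m := ⟨⟨(m : G), hH m.2⟩, by
    have h1 : (⟨(m : G), hH m.2⟩ : H) ∈ (Subgroup.normalizer (P : Set G)).subgroupOf H := m.2
    rw [Subgroup.subgroupOf_normalizer_eq (Subgroup.le_normalizer.trans hH)] at h1
    exact h1⟩
  left_inv n := rfl
  right_inv m := rfl
  map_mul' a b := rfl

theorem coe_nIso (P H : Subgroup G) (hH : Subgroup.normalizer (P : Set G) ≤ H)
    (n : ↥(Subgroup.normalizer ((P.subgroupOf H : Subgroup H) : Set H))) :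
    ((nIso P H hH n : ↥(Subgroup.normalizer (P : Set G))) : G) = ((n : H) : G) := rfl

theorem map_nIso_symm (P H : Subgroup G) (hH : Subgroup.normalizer (P : Set G) ≤ H) :
    (P.subgroupOf (Subgroup.normalizer (P : Set G))).map (nIso P H hH).symm.toMonoidHom
      = (P.subgroupOf H).subgroupOf
          (Subgroup.normalizer ((P.subgroupOf H : Subgroup H) : Set H)) := by
  ext n
  rw [Subgroup.mem_map_equiv]
  rfl

theorem map_nIso (P H : Subgroup G) (hH : Subgroup.normalizer (P : Set G) ≤ H) :
    ((P.subgroupOf H).subgroupOf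
        (Subgroup.normalizer ((P.subgroupOf H : Subgroup H) : Set H))).map
      (nIso P H hH).symm.symm.toMonoidHom
      = P.subgroupOf (Subgroup.normalizer (P : Set G)) := by
  ext n
  rw [Subgroup.mem_map_equiv]
  rfl

theorem subgroupBlockCoeff_of_mem (H : Subgroup G) (c : Set (IrrCharacter H)) (x : G)
    (hx : x ∈ H) : subgroupBlockCoeff H c x = blockCoeff c ⟨x, hx⟩ := by
  unfold subgroupBlockCoeff
  rw [dif_pos hx]

theorem mem_centralizer_subgroupOf (P H : Subgroup G) (x : G) (hxH : x ∈ H)
    (hx : x ∈ Subgroup.centralizer (P : Set G)) :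
    (⟨x, hxH⟩ : H) ∈ Subgroup.centralizer ((P.subgroupOf H : Subgroup H) : Set H) := by
  rw [Subgroup.mem_centralizer_iff]
  intro u hu
  apply Subtype.ext
  exact (Subgroup.mem_centralizer_iff.mp hx) (u : G) hu

theorem coe_mem_centralizer (P H : Subgroup G) (hPH : P ≤ H) (h : H)
    (hh : h ∈ Subgroup.centralizer ((P.subgroupOf H : Subgroup H) : Set H)) :
    (h : G) ∈ Subgroup.centralizer (P : Set G) := by
  rw [Subgroup.mem_centralizer_iff]
  intro u hu
  have := (Subgroup.mem_centralizer_iff.mp hh) ⟨u, hPH hu⟩ hu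
  exact congrArg Subtype.val this

open Cfsg.Agent.Lib.Helper77.BPTransport in
/-- Correspondents in `N_G(P)` and `N_H(P)` matched by `nIso` give congruent coefficients on
`C_G(P)`. -/
theorem coeff_sub_of_matched [Finite G] {p : ℕ} [Fact p.Prime] (hM : IsPModular p M)
    (P H : Subgroup G) (hP : IsPGroup p P) (hH : Subgroup.normalizer (P : Set G) ≤ H)
    (B : Set (IrrCharacter G)) (c : Set (IrrCharacter H))
    (βG : Set (IrrCharacter (Subgroup.normalizer (P : Set G))))
    (βH : Set (IrrCharacter (Subgroup.normalizer ((P.subgroupOf H : Subgroup H) : Set H))))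
    (hβG : IsDefectGroup p M βG (P.subgroupOf (Subgroup.normalizer (P : Set G))))
    (hiG : IsInducedBlock M (Subgroup.normalizer (P : Set G)) βG B)
    (hβH : IsDefectGroup p M βH ((P.subgroupOf H).subgroupOf
      (Subgroup.normalizer ((P.subgroupOf H : Subgroup H) : Set H))))
    (hiH : IsInducedBlock M (Subgroup.normalizer ((P.subgroupOf H : Subgroup H) : Set H)) βH c)
    (hrel : βH = pull (nIso P H hH) '' βG)
    (x : G) (hx : x ∈ Subgroup.centralizer (P : Set G)) :
    MemLocalIdeal M (blockCoeff B x - subgroupBlockCoeff H c x) := by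
  classical
  have hMp := isPrime_of_isPModular hM
  have hCH : Subgroup.centralizer (P : Set G) ≤ H :=
    (Subgroup.centralizer_le_normalizer _).trans hH
  have hP' : IsPGroup p (P.subgroupOf H) := hP.comap_subtype
  have hxH : x ∈ H := hCH hx
  rw [subgroupBlockCoeff_of_mem H c x hxH]
  have h1 := coeff_sub_correspondent hM P hP B βG hβG hiG x hx
  have h2 := coeff_sub_correspondent hM (P.subgroupOf H) hP' c βH hβH hiH ⟨x, hxH⟩
    (mem_centralizer_subgroupOf P H x hxH hx)
  have h3 : blockCoeff βH ⟨⟨x, hxH⟩, Subgroup.centralizer_le_normalizer _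
      (mem_centralizer_subgroupOf P H x hxH hx)⟩
      = blockCoeff βG ⟨x, Subgroup.centralizer_le_normalizer _ hx⟩ := by
    rw [hrel, blockCoeff_pull]
    rfl
  rw [h3] at h2
  have h4 := memLocalIdeal_sub hMp h1 h2
  have h5 : blockCoeff B x - blockCoeff c ⟨x, hxH⟩
      = blockCoeff B x - blockCoeff βG ⟨x, Subgroup.centralizer_le_normalizer _ hx⟩
        - (blockCoeff c ⟨x, hxH⟩
          - blockCoeff βG ⟨x, Subgroup.centralizer_le_normalizer _ hx⟩) := by
    ring
  rw [h5]
  exact h4

open Cfsg.Agent.Lib.Helper77.BPTransport in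
/-- **Brauer correspondence over `H ⊇ N_G(P)`**. -/
theorem brauer_corr [Finite G] (p : ℕ) [Fact p.Prime] (M : Ideal AlgInt) (hM : IsPModular p M)
    (P H : Subgroup G) (hP : IsPGroup p P) (hH : Subgroup.normalizer (P : Set G) ≤ H) :
    (∀ B : Set (IrrCharacter G), IsPBlock M B → IsDefectGroup p M B P →
      ∃! c : Set (IrrCharacter H), IsPBlock M c ∧ IsDefectGroup p M c (P.subgroupOf H) ∧
        ∀ x : G, x ∈ Subgroup.centralizer (P : Set G) →
          MemLocalIdeal M (blockCoeff B x - subgroupBlockCoeff H c x)) ∧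
    (∀ c : Set (IrrCharacter H), IsPBlock M c → IsDefectGroup p M c (P.subgroupOf H) →
      ∃! B : Set (IrrCharacter G), IsPBlock M B ∧ IsDefectGroup p M B P ∧
        ∀ x : G, x ∈ Subgroup.centralizer (P : Set G) →
          MemLocalIdeal M (blockCoeff B x - subgroupBlockCoeff H c x)) := by
  classical
  have hMp := isPrime_of_isPModular hM
  have hPH : P ≤ H := Subgroup.le_normalizer.trans hH
  have hCH : Subgroup.centralizer (P : Set G) ≤ H :=
    (Subgroup.centralizer_le_normalizer _).trans hH
  have hP' : IsPGroup p (P.subgroupOf H) := hP.comap_subtype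
  refine ⟨?_, ?_⟩
  · intro B hB hDB
    obtain ⟨βG, hβGd, hβGi⟩ :=
      Cfsg.Agent.Lib.Helper16.FirstMain.exists_block_normalizer p hM P B hB hDB
    have hβHb : IsPBlock M (pull (nIso P H hH) '' βG) := isPBlock_pull (nIso P H hH) hβGi.1
    have hβHd : IsDefectGroup p M (pull (nIso P H hH) '' βG) ((P.subgroupOf H).subgroupOf
        (Subgroup.normalizer ((P.subgroupOf H : Subgroup H) : Set H))) := by
      have h1 := Cfsg.Agent.Lib.Helper77.BPEquiv2.isDefectGroup_pull (nIso P H hH) hβGd
      rwa [map_nIso_symm] at h1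
    obtain ⟨c, hc⟩ := inducedBlockDefined_of_local hM (P.subgroupOf H)
      (Subgroup.normalizer ((P.subgroupOf H : Subgroup H) : Set H)) hP' Subgroup.le_normalizer
      (Subgroup.centralizer_le_normalizer _) le_rfl _ hβHb
    have hcd : IsDefectGroup p M c (P.subgroupOf H) :=
      Cfsg.Agent.Lib.Helper16.FirstMain.isDefectGroup_induced p hM (P.subgroupOf H) _ hβHd c hc
    refine ⟨c, ⟨hc.2.1, hcd, fun x hx => ?_⟩, ?_⟩
    · exact coeff_sub_of_matched hM P H hP hH B c βG _ hβGd hβGi hβHd hc rfl x hx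
    · rintro c' ⟨hc'b, hc'd, hc'x⟩
      apply eq_of_coeff_centralizer hM (P.subgroupOf H) hP' c' c hc'b hc.2.1 hc'd hcd
      intro h hh
      have hxG : (h : G) ∈ Subgroup.centralizer (P : Set G) := coe_mem_centralizer P H hPH h hh
      have h1 := hc'x (h : G) hxG
      have h2 := coeff_sub_of_matched hM P H hP hH B c βG _ hβGd hβGi hβHd hc rfl (h : G) hxG
      rw [subgroupBlockCoeff_of_mem H _ _ h.2] at h1 h2
      have h3 := memLocalIdeal_sub hMp h2 h1
      have h4 : blockCoeff c' h - blockCoeff c h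
          = blockCoeff B (h : G) - blockCoeff c ⟨(h : G), h.2⟩
            - (blockCoeff B (h : G) - blockCoeff c' ⟨(h : G), h.2⟩) := by
        ring
      rw [h4]
      exact h3
  · intro c hc hDc
    obtain ⟨βH, hβHd, hβHi⟩ :=
      Cfsg.Agent.Lib.Helper16.FirstMain.exists_block_normalizer p hM (P.subgroupOf H) c hc hDc
    have hβGb : IsPBlock M (pull (nIso P H hH).symm '' βH) :=
      isPBlock_pull (nIso P H hH).symm hβHi.1
    have hβGd : IsDefectGroup p M (pull (nIso P H hH).symm '' βH)
        (P.subgroupOf (Subgroup.normalizer (P : Set G))) := by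
      have h1 := Cfsg.Agent.Lib.Helper77.BPEquiv2.isDefectGroup_pull (nIso P H hH).symm hβHd
      rwa [map_nIso] at h1
    have hrel : βH = pull (nIso P H hH) '' (pull (nIso P H hH).symm '' βH) := by
      ext ψ
      rw [mem_pull_image_iff]
      constructor
      · intro h
        exact ⟨ψ, h, rfl⟩
      · rintro ⟨ψ', h', he⟩
        have := pull_injective (nIso P H hH).symm he
        rwa [← this]
    obtain ⟨B, hBi⟩ := inducedBlockDefined_of_local hM P
      (Subgroup.normalizer (P : Set G)) hP Subgroup.le_normalizer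
      (Subgroup.centralizer_le_normalizer _) le_rfl _ hβGb
    have hBd : IsDefectGroup p M B P :=
      Cfsg.Agent.Lib.Helper16.FirstMain.isDefectGroup_induced p hM P _ hβGd B hBi
    refine ⟨B, ⟨hBi.2.1, hBd, fun x hx => ?_⟩, ?_⟩
    · exact coeff_sub_of_matched hM P H hP hH B c _ βH hβGd hBi hβHd hβHi hrel x hx
    · rintro B' ⟨hB'b, hB'd, hB'x⟩
      apply eq_of_coeff_centralizer hM P hP B' B hB'b hBi.2.1 hB'd hBd
      intro x hx
      have h1 := hB'x x hx
      have h2 := coeff_sub_of_matched hM P H hP hH B c _ βH hβGd hBi hβHd hβHi hrel x hx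
      have h3 := memLocalIdeal_sub hMp h1 h2
      have h4 : blockCoeff B' x - blockCoeff B x
          = blockCoeff B' x - subgroupBlockCoeff H c x
            - (blockCoeff B x - subgroupBlockCoeff H c x) := by
        ring
      rw [h4]
      exact h3

end Cfsg.Agent.Lib.CT.BrauerCorr
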