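import Cfsg.Agent.Lib.CT.ColumnId
import Cfsg.Agent.Lib.CT.ClassMult
import Cfsg.Agent.Lib.CT.Kernel
import Cfsg.Agent.Lib.CT.PrincipalSection

/-!
# Vanishing of columns of the principal block weighted by a local generalized character

For a `p`-subgroup `P`, a generalized character `θ` of `P` vanishing off `U ⊆ P`, and
`a_χ = |P|⁻¹ ∑_{y ∈ P} χ(y) θ(y⁻¹)`, the sum `∑_{χ ∈ B} a_χ χ(g)` vanishes whenever the
`p`-part of `g` is not conjugate to an element of `U`.  For `p = 2` and an involution `t`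
none of whose conjugates inverts an element of `U` this gives three vanishing relations and
a sign statement for the principal block.
-/

set_option autoImplicit false
open Cfsg
open scoped ComplexConjugate

namespace Cfsg.Agent.Lib.CT.ColumnVanish

open Cfsg.Agent.Lib.CT.Wedderburn Cfsg.Agent.Lib.CT.ColumnId

universe u
variable {G : Type u} [Group G]

/-- Every element of a finite group has a `p`-part which is a power of it. -/
theorem exists_isPPart_zpow [Finite G] (p : ℕ) (hp : p.Prime) (t : G) :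
    ∃ n : ℤ, IsPPart p t (t ^ n) := by
  obtain ⟨k, m, hm, hn⟩ := Nat.exists_eq_pow_mul_and_not_dvd (orderOf_pos t).ne' p hp.ne_one
  have hcop : Nat.gcd (p ^ k) m = 1 :=
    Nat.Coprime.pow_left _ ((Nat.Prime.coprime_iff_not_dvd hp).mpr hm)
  have hbez : ((1 : ℕ) : ℤ) = (p ^ k : ℕ) * Nat.gcdA (p ^ k) m + (m : ℤ) * Nat.gcdB (p ^ k) m := by
    rw [← hcop]; exact Nat.gcd_eq_gcd_ab (p ^ k) m
  refine ⟨(m : ℤ) * Nat.gcdB (p ^ k) m, t ^ (((p ^ k : ℕ) : ℤ) * Nat.gcdA (p ^ k) m), ?_, ?_,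
    ?_, ?_⟩
  · rw [← zpow_add, add_comm, ← hbez]; simp
  · exact (Commute.refl t).zpow_zpow _ _
  · have h1 : (t ^ ((m : ℤ) * Nat.gcdB (p ^ k) m)) ^ (p ^ k) = 1 := by
      rw [← zpow_natCast, ← zpow_mul]
      have : (m : ℤ) * Nat.gcdB (p ^ k) m * ((p ^ k : ℕ) : ℤ) =
          ((orderOf t : ℕ) : ℤ) * Nat.gcdB (p ^ k) m := by
        rw [hn]; push_cast; ring
      rw [this, zpow_mul, zpow_natCast, pow_orderOf_eq_one, one_zpow]
    obtain ⟨j, -, hj⟩ := (Nat.dvd_prime_pow hp).mp (orderOf_dvd_of_pow_eq_one h1)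
    exact ⟨j, hj⟩
  · have h1 : (t ^ (((p ^ k : ℕ) : ℤ) * Nat.gcdA (p ^ k) m)) ^ m = 1 := by
      rw [← zpow_natCast, ← zpow_mul]
      have : ((p ^ k : ℕ) : ℤ) * Nat.gcdA (p ^ k) m * (m : ℤ) =
          ((orderOf t : ℕ) : ℤ) * Nat.gcdA (p ^ k) m := by
        rw [hn]; push_cast; ring
      rw [this, zpow_mul, zpow_natCast, pow_orderOf_eq_one, one_zpow]
    intro hdvd
    exact hm (hdvd.trans (orderOf_dvd_of_pow_eq_one h1))

/-- The weighted column sum vanishes at elements whose `p`-part is not fused into `U`. -/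
theorem col_vanish [Finite G] (p : ℕ) [Fact p.Prime] (M : Ideal AlgInt) (hM : IsPModular p M)
    (P : Subgroup G) (hP : IsPGroup p ↥P) (U : Set G) (θ : ↥P → ℂ)
    (hθU : ∀ y : ↥P, (y : G) ∉ U → θ y = 0) (B : Set (IrrCharacter G)) (hB : IsPBlock M B)
    (g x : G) (hgx : IsPPart p g x) (hx : ∀ u ∈ U, ¬ IsConj x u) :
    ∑ᶠ χ ∈ B, ((Nat.card ↥P : ℂ)⁻¹ * ∑ᶠ y : ↥P, (χ : G → ℂ) (y : G) * θ y⁻¹) *
      (χ : G → ℂ) g = 0 := by
  classical
  have hp : p.Prime := Fact.out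
  have := finite_irrCharacter G
  let _ := Fintype.ofFinite (IrrCharacter G)
  let _ := Fintype.ofFinite ↥P
  rw [ColumnId.finsum_mem_eq_sum]
  simp only [finsum_eq_sum_of_fintype]
  have h1 : ∀ χ : IrrCharacter G,
      (if χ ∈ B then ((Nat.card ↥P : ℂ)⁻¹ * ∑ y : ↥P, (χ : G → ℂ) (y : G) * θ y⁻¹) *
        (χ : G → ℂ) g else 0) =
      (Nat.card ↥P : ℂ)⁻¹ * ∑ y : ↥P, θ y⁻¹ *
        (if χ ∈ B then (χ : G → ℂ) g * (χ : G → ℂ) (y : G) else 0) := by
    intro χ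
    split_ifs with h
    · rw [mul_assoc, Finset.sum_mul]
      congr 1
      exact Finset.sum_congr rfl fun y _ => by ring
    · simp
  rw [Finset.sum_congr rfl fun χ _ => h1 χ, ← Finset.mul_sum, Finset.sum_comm]
  simp only [← Finset.mul_sum]
  have h2 : ∀ y : ↥P, θ y⁻¹ * ∑ χ : IrrCharacter G,
      (if χ ∈ B then (χ : G → ℂ) g * (χ : G → ℂ) (y : G) else 0) = 0 := by
    intro y
    by_cases hy : ((y⁻¹ : ↥P) : G) ∈ U
    · have hy' : ∃ k : ℕ, orderOf ((y⁻¹ : ↥P) : G) = p ^ k := orderOf_coe_of_isPGroup hP y⁻¹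
      have h3 := (Cfsg.Agent.S0925.result p M hM).2 g ((y⁻¹ : ↥P) : G) x ((y⁻¹ : ↥P) : G) hgx
        (isPPart_self p hp _ hy') (hx _ hy) B hB
      rw [ColumnId.finsum_mem_eq_sum] at h3
      have h4 : (((y⁻¹ : ↥P) : G))⁻¹ = (y : G) := by simp
      rw [h4] at h3
      rw [h3, mul_zero]
    · rw [hθU _ hy, zero_mul]
  rw [Finset.sum_congr rfl fun y _ => h2 y]
  simp

/-- A real-variable lemma: three weighted relations and at most one positive weight force a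
second index with `e i = d i`. -/
theorem real_key {ι : Type*} [Fintype ι] (x d e : ι → ℝ) (hd : ∀ i, 0 < d i) (i0 : ι)
    (hd0 : d i0 = 1) (he0 : e i0 = 1) (hx0 : x i0 ≠ 0)
    (hA : ∑ i, x i * (e i ^ 2 / d i) = 0) (hB : ∑ i, x i * d i = 0)
    (hC : ∑ i, x i * e i = 0)
    (hpos : ∀ i j, 0 < x i → 0 < x j → i = j) :
    ∃ i, i ≠ i0 ∧ x i ≠ 0 ∧ e i = d i := by
  classical
  have hex_pos : ∃ i, 0 < x i := by
    by_contra hcon
    push Not at hcon
    have h1 : ∀ i ∈ Finset.univ, x i * d i ≤ 0 :=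
      fun i _ => mul_nonpos_of_nonpos_of_nonneg (hcon i) (hd i).le
    have h2 := (Finset.sum_eq_zero_iff_of_nonpos h1).mp hB i0 (Finset.mem_univ _)
    rw [hd0, mul_one] at h2
    exact hx0 h2
  have hex_neg : ∃ i, x i < 0 := by
    by_contra hcon
    push Not at hcon
    have h1 : ∀ i ∈ Finset.univ, 0 ≤ x i * d i := fun i _ => mul_nonneg (hcon i) (hd i).le
    have h2 := (Finset.sum_eq_zero_iff_of_nonneg h1).mp hB i0 (Finset.mem_univ _)
    rw [hd0, mul_one] at h2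
    exact hx0 h2
  obtain ⟨i1, hi1⟩ := hex_pos
  obtain ⟨i2, hi2⟩ := hex_neg
  have hle : ∀ i, i ≠ i1 → x i ≤ 0 := fun i hi => not_lt.mp fun h => hi (hpos i i1 h hi1)
  obtain ⟨lam, hlam⟩ : ∃ lam : ℝ, lam = e i1 / d i1 := ⟨_, rfl⟩
  have hsum : ∑ i, x i * ((lam * d i - e i) ^ 2 / d i) = 0 := by
    have h3 : ∀ i, x i * ((lam * d i - e i) ^ 2 / d i) =
        lam ^ 2 * (x i * d i) - 2 * lam * (x i * e i) + x i * (e i ^ 2 / d i) := by
      intro i
      have := (hd i).ne'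
      field_simp
      ring
    simp only [h3, Finset.sum_add_distrib, Finset.sum_sub_distrib, ← Finset.mul_sum, hA, hB, hC]
    ring
  have hterm : ∀ i ∈ Finset.univ, x i * ((lam * d i - e i) ^ 2 / d i) ≤ 0 := by
    intro i _
    by_cases hi : i = i1
    · subst hi
      have h4 : lam * d i - e i = 0 := by
        rw [hlam, div_mul_cancel₀ _ (hd i).ne', sub_self]
      rw [h4]
      simp
    · exact mul_nonpos_of_nonpos_of_nonneg (hle i hi) (div_nonneg (sq_nonneg _) (hd i).le)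
  have hzero := (Finset.sum_eq_zero_iff_of_nonpos hterm).mp hsum
  have hz : ∀ i, x i ≠ 0 → lam * d i = e i := by
    intro i hxi
    have h := hzero i (Finset.mem_univ _)
    rcases mul_eq_zero.mp h with h | h
    · exact absurd h hxi
    · rcases div_eq_zero_iff.mp h with h | h
      · exact sub_eq_zero.mp (pow_eq_zero_iff two_ne_zero |>.mp h)
      · exact absurd h (hd i).ne'
  have hl1 : lam = 1 := by
    have h5 := hz i0 hx0
    rw [hd0, he0, mul_one] at h5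
    exact h5
  by_cases h10 : i1 = i0
  · refine ⟨i2, ?_, hi2.ne, ?_⟩
    · intro h20
      rw [h20, ← h10] at hi2
      exact lt_asymm hi1 hi2
    · have h6 := hz i2 hi2.ne
      rw [hl1, one_mul] at h6
      exact h6.symm
  · refine ⟨i1, h10, hi1.ne', ?_⟩
    have h6 := hz i1 hi1.ne'
    rw [hl1, one_mul] at h6
    exact h6.symm

section involution

variable [Finite G] (M : Ideal AlgInt) (hM : IsPModular 2 M) (P : Subgroup G)
  (hP : IsPGroup 2 ↥P) (U : Set G) (t : G) (ht : orderOf t = 2)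
  (hinv : ∀ u ∈ U, ∀ g : G, (g * t * g⁻¹) * u * (g * t * g⁻¹)⁻¹ ≠ u⁻¹)
  (θ : ↥P → ℂ) (hθU : ∀ y : ↥P, (y : G) ∉ U → θ y = 0)

include hM hP hinv hθU in
theorem inv_part2 :
    ∑ᶠ χ ∈ principalBlock M G,
      ((Nat.card ↥P : ℂ)⁻¹ * ∑ᶠ y : ↥P, (χ : G → ℂ) (y : G) * θ y⁻¹) * (χ : G → ℂ) 1 = 0 := by
  have : Fact (Nat.Prime 2) := ⟨Nat.prime_two⟩
  refine col_vanish 2 M hM P hP U θ hθU _ (isPBlock_principal M) 1 1
    (isPPart_self 2 Nat.prime_two 1 ⟨0, by simp⟩) ?_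
  intro u hu hc
  have hu1 : u = 1 := isConj_one_right.mp hc
  subst hu1
  exact hinv 1 hu 1 (by simp)

omit [Finite G] in
include ht in
theorem inv_sq : t * t = 1 := by
  have h := pow_orderOf_eq_one t
  rw [ht, pow_two] at h
  exact h

include hM hP ht hinv hθU in
theorem inv_part3 :
    ∑ᶠ χ ∈ principalBlock M G,
      ((Nat.card ↥P : ℂ)⁻¹ * ∑ᶠ y : ↥P, (χ : G → ℂ) (y : G) * θ y⁻¹) * (χ : G → ℂ) t = 0 := by
  have : Fact (Nat.Prime 2) := ⟨Nat.prime_two⟩
  refine col_vanish 2 M hM P hP U θ hθU _ (isPBlock_principal M) t t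
    (isPPart_self 2 Nat.prime_two t ⟨1, by rw [ht, pow_one]⟩) ?_
  intro u hu hc
  obtain ⟨c, hc⟩ := isConj_iff.mp hc
  have htt := inv_sq t ht
  apply hinv u hu c
  rw [hc]
  have huu : u * u = 1 := by
    rw [← hc]
    calc c * t * c⁻¹ * (c * t * c⁻¹) = c * (t * t) * c⁻¹ := by group
      _ = 1 := by rw [htt]; group
  rw [mul_inv_cancel_right]
  exact eq_inv_of_mul_eq_one_left huu

include hM hP ht hinv hθU in
theorem inv_part1 :
    ∑ᶠ χ ∈ principalBlock M G,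
      ((Nat.card ↥P : ℂ)⁻¹ * ∑ᶠ y : ↥P, (χ : G → ℂ) (y : G) * θ y⁻¹) * (χ : G → ℂ) t ^ 2 /
        (χ : G → ℂ) 1 = 0 := by
  classical
  have : Fact (Nat.Prime 2) := ⟨Nat.prime_two⟩
  let _ : Fintype G := Fintype.ofFinite G
  have := finite_irrCharacter G
  let _ := Fintype.ofFinite (IrrCharacter G)
  have hne : (Nat.card G : ℂ) ≠ 0 := Nat.cast_ne_zero.mpr Nat.card_pos.ne'
  have htt := inv_sq t ht
  have key : ∀ g : G, ∑ᶠ χ ∈ principalBlock M G,
      ((Nat.card ↥P : ℂ)⁻¹ * ∑ᶠ y : ↥P, (χ : G → ℂ) (y : G) * θ y⁻¹) *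
        (χ : G → ℂ) (t * (g * t * g⁻¹)) = 0 := by
    intro g
    obtain ⟨n, hn⟩ := exists_isPPart_zpow 2 Nat.prime_two (t * (g * t * g⁻¹))
    refine col_vanish 2 M hM P hP U θ hθU _ (isPBlock_principal M) _ _ hn ?_
    intro u hu hc
    obtain ⟨c, hc⟩ := isConj_iff.mp hc
    apply hinv u hu c
    have h1 : t * (t * (g * t * g⁻¹)) * t⁻¹ = (t * (g * t * g⁻¹))⁻¹ := by
      have e1 : t⁻¹ = t := inv_eq_of_mul_eq_one_left htt
      have e2 : (t * (g * t * g⁻¹)) * (t * (t * (g * t * g⁻¹)) * t⁻¹) = 1 := by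
        rw [e1]
        have htt' : ∀ a : G, t * (t * a) = a := fun a => by rw [← mul_assoc, htt, one_mul]
        simp only [mul_assoc, htt', inv_mul_cancel_left, mul_inv_cancel_left, htt]
      exact eq_inv_of_mul_eq_one_right e2
    have h2 : t * (t * (g * t * g⁻¹)) ^ n * t⁻¹ = ((t * (g * t * g⁻¹)) ^ n)⁻¹ := by
      rw [← conj_zpow, h1, inv_zpow]
    rw [← hc]
    calc c * t * c⁻¹ * (c * (t * (g * t * g⁻¹)) ^ n * c⁻¹) * (c * t * c⁻¹)⁻¹
        = c * (t * (t * (g * t * g⁻¹)) ^ n * t⁻¹) * c⁻¹ := by group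
      _ = (c * (t * (g * t * g⁻¹)) ^ n * c⁻¹)⁻¹ := by rw [h2]; group
  have h1 : ∀ χ ∈ principalBlock M G,
      ((Nat.card ↥P : ℂ)⁻¹ * ∑ᶠ y : ↥P, (χ : G → ℂ) (y : G) * θ y⁻¹) * (χ : G → ℂ) t ^ 2 /
        (χ : G → ℂ) 1 =
      (Nat.card G : ℂ)⁻¹ * ∑ g : G,
        ((Nat.card ↥P : ℂ)⁻¹ * ∑ᶠ y : ↥P, (χ : G → ℂ) (y : G) * θ y⁻¹) *
          (χ : G → ℂ) (t * (g * t * g⁻¹)) := by
    intro χ _
    rw [← Finset.mul_sum, Cfsg.Agent.Lib.CT.ClassMult.irr_schur_average χ.2 t t]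
    field_simp
  rw [finsum_mem_congr rfl h1, ColumnId.finsum_mem_eq_sum]
  have h2 : ∀ χ : IrrCharacter G,
      (if χ ∈ principalBlock M G then (Nat.card G : ℂ)⁻¹ * ∑ g : G,
        ((Nat.card ↥P : ℂ)⁻¹ * ∑ᶠ y : ↥P, (χ : G → ℂ) (y : G) * θ y⁻¹) *
          (χ : G → ℂ) (t * (g * t * g⁻¹)) else 0) =
      (Nat.card G : ℂ)⁻¹ * ∑ g : G, (if χ ∈ principalBlock M G then
        ((Nat.card ↥P : ℂ)⁻¹ * ∑ᶠ y : ↥P, (χ : G → ℂ) (y : G) * θ y⁻¹) *
          (χ : G → ℂ) (t * (g * t * g⁻¹)) else 0) := by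
    intro χ
    split_ifs with h
    · rfl
    · simp
  rw [Finset.sum_congr rfl fun χ _ => h2 χ, ← Finset.mul_sum, Finset.sum_comm]
  have h3 : ∀ g : G, ∑ χ : IrrCharacter G, (if χ ∈ principalBlock M G then
        ((Nat.card ↥P : ℂ)⁻¹ * ∑ᶠ y : ↥P, (χ : G → ℂ) (y : G) * θ y⁻¹) *
          (χ : G → ℂ) (t * (g * t * g⁻¹)) else 0) = 0 := by
    intro g
    rw [← ColumnId.finsum_mem_eq_sum]
    exact key g
  rw [Finset.sum_congr rfl fun g _ => h3 g]
  simp

include hM hP ht hinv hθU in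
theorem inv_part4 (hθ : IsGeneralizedCharacter ↥P θ)
    (hne : (Nat.card ↥P : ℂ)⁻¹ * ∑ᶠ y : ↥P, θ y ≠ 0) :
    (2 ≤ Nat.card {χ : IrrCharacter G // χ ∈ principalBlock M G ∧
        0 < (((Nat.card ↥P : ℂ)⁻¹ * ∑ᶠ y : ↥P, (χ : G → ℂ) (y : G) * θ y⁻¹)).re} ∧
      2 ≤ Nat.card {χ : IrrCharacter G // χ ∈ principalBlock M G ∧
        (((Nat.card ↥P : ℂ)⁻¹ * ∑ᶠ y : ↥P, (χ : G → ℂ) (y : G) * θ y⁻¹)).re < 0}) ∨
    ∃ K : Subgroup G, K.Normal ∧ K ≠ ⊤ ∧ pPrimeCore 2 G ≤ K ∧ t ∈ K := by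
  classical
  have : Fact (Nat.Prime 2) := ⟨Nat.prime_two⟩
  let _ : Fintype G := Fintype.ofFinite G
  have := finite_irrCharacter G
  let _ := Fintype.ofFinite (IrrCharacter G)
  let _ := Fintype.ofFinite ↥P
  have hMp : M.IsPrime := Cfsg.Agent.Lib.Helper77.LocalRing.isPrime_of_isPModular hM
  have htt := inv_sq t ht
  have h1 := inv_part1 M hM P hP U t ht hinv θ hθU
  have h2 := inv_part2 M hM P hP U t hinv θ hθU
  have h3 := inv_part3 M hM P hP U t ht hinv θ hθU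
  obtain ⟨a, ha⟩ : ∃ a : IrrCharacter G → ℂ, ∀ χ : IrrCharacter G,
      a χ = (Nat.card ↥P : ℂ)⁻¹ * ∑ᶠ y : ↥P, (χ : G → ℂ) (y : G) * θ y⁻¹ := ⟨_, fun _ => rfl⟩
  simp only [← ha] at h1 h2 h3 ⊢
  rw [ColumnId.finsum_mem_eq_sum] at h1 h2 h3
  obtain ⟨x, hx⟩ : ∃ x : IrrCharacter G → ℝ, ∀ χ : IrrCharacter G,
      x χ = if χ ∈ principalBlock M G then (a χ).re else 0 := ⟨_, fun _ => rfl⟩
  obtain ⟨d, hdd⟩ : ∃ d : IrrCharacter G → ℝ, ∀ χ : IrrCharacter G,
      d χ = (charDegree (χ : G → ℂ) : ℝ) := ⟨_, fun _ => rfl⟩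
  obtain ⟨e, hee⟩ : ∃ e : IrrCharacter G → ℝ, ∀ χ : IrrCharacter G,
      e χ = ((χ : G → ℂ) t).re := ⟨_, fun _ => rfl⟩
  have hd : ∀ χ, 0 < d χ := fun χ => by
    rw [hdd]
    exact Nat.cast_pos.mpr (irr_charDegree_pos χ.2)
  have hd1 : ∀ χ : IrrCharacter G, (χ : G → ℂ) 1 = ((d χ : ℝ) : ℂ) := by
    intro χ
    rw [← char_natCast_charDegree (isCharacter_of_irr χ.2), hdd]
    simp
  have he1 : ∀ χ : IrrCharacter G, (χ : G → ℂ) t = ((e χ : ℝ) : ℂ) := by
    intro χ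
    have h := char_apply_inv (isCharacter_of_irr χ.2) t
    rw [inv_eq_of_mul_eq_one_left htt] at h
    rw [hee]
    exact (Complex.conj_eq_iff_re.mp h.symm).symm
  have hA : ∑ χ, x χ * (e χ ^ 2 / d χ) = 0 := by
    have h := congrArg Complex.re h1
    rw [Complex.re_sum, Complex.zero_re] at h
    rw [← h]
    refine Finset.sum_congr rfl fun χ _ => ?_
    rw [hx]
    split_ifs with hB
    · rw [hd1 χ, he1 χ, mul_div_assoc, ← Complex.ofReal_pow, ← Complex.ofReal_div,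
        Complex.re_mul_ofReal]
    · simp
  have hB : ∑ χ, x χ * d χ = 0 := by
    have h := congrArg Complex.re h2
    rw [Complex.re_sum, Complex.zero_re] at h
    rw [← h]
    refine Finset.sum_congr rfl fun χ _ => ?_
    rw [hx]
    split_ifs with hB
    · rw [hd1 χ, Complex.re_mul_ofReal]
    · simp
  have hC : ∑ χ, x χ * e χ = 0 := by
    have h := congrArg Complex.re h3
    rw [Complex.re_sum, Complex.zero_re] at h
    rw [← h]
    refine Finset.sum_congr rfl fun χ _ => ?_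
    rw [hx]
    split_ifs with hB
    · rw [he1 χ, Complex.re_mul_ofReal]
    · simp
  have hd0 : d (Cfsg.Agent.Lib.CT.ThirdMain.triv G) = 1 := by
    have h := hd1 (Cfsg.Agent.Lib.CT.ThirdMain.triv G)
    rw [Cfsg.Agent.Lib.CT.ThirdMain.coe_triv] at h
    have h' : ((d (Cfsg.Agent.Lib.CT.ThirdMain.triv G) : ℝ) : ℂ) = ((1 : ℝ) : ℂ) := by
      rw [← h, Complex.ofReal_one]
    exact Complex.ofReal_injective h'
  have he0 : e (Cfsg.Agent.Lib.CT.ThirdMain.triv G) = 1 := by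
    rw [hee, Cfsg.Agent.Lib.CT.ThirdMain.coe_triv]
    simp
  have hx0 : x (Cfsg.Agent.Lib.CT.ThirdMain.triv G) ≠ 0 := by
    rw [hx, if_pos (Cfsg.Agent.Lib.CT.ThirdMain.triv_mem_principalBlock hMp), ha,
      Cfsg.Agent.Lib.CT.ThirdMain.coe_triv]
    simp only [one_mul]
    have e1 : ∑ᶠ y : ↥P, θ y⁻¹ = ∑ᶠ y : ↥P, θ y := by
      rw [finsum_eq_sum_of_fintype, finsum_eq_sum_of_fintype]
      exact Equiv.sum_comp (Equiv.inv ↥P) θ
    rw [e1]
    have hθinv : ∀ y : ↥P, conj (θ y) = θ y⁻¹ := by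
      intro y
      obtain ⟨χ₁, χ₂, h₁, h₂, rfl⟩ := hθ
      simp only [Pi.sub_apply, map_sub]
      rw [char_apply_inv h₁, char_apply_inv h₂]
    have hreal : conj ((Nat.card ↥P : ℂ)⁻¹ * ∑ᶠ y : ↥P, θ y) =
        (Nat.card ↥P : ℂ)⁻¹ * ∑ᶠ y : ↥P, θ y := by
      rw [map_mul, map_inv₀, Complex.conj_natCast]
      congr 1
      rw [finsum_eq_sum_of_fintype, map_sum]
      rw [Finset.sum_congr rfl fun y _ => hθinv y]
      exact Equiv.sum_comp (Equiv.inv ↥P) θ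
    intro hre
    apply hne
    apply Complex.ext
    · rw [hre, Complex.zero_re]
    · rw [Complex.conj_eq_iff_im.mp hreal, Complex.zero_im]
  have hxmem : ∀ χ, x χ ≠ 0 → χ ∈ principalBlock M G := by
    intro χ hχ
    by_contra hcon
    rw [hx, if_neg hcon] at hχ
    exact hχ rfl
  have main : (¬ (2 ≤ Nat.card {χ : IrrCharacter G // χ ∈ principalBlock M G ∧ 0 < (a χ).re} ∧
      2 ≤ Nat.card {χ : IrrCharacter G // χ ∈ principalBlock M G ∧ (a χ).re < 0})) →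
      ∃ χ : IrrCharacter G, χ ≠ Cfsg.Agent.Lib.CT.ThirdMain.triv G ∧ χ ∈ principalBlock M G ∧
        (χ : G → ℂ) t = (χ : G → ℂ) 1 := by
    intro hcase
    rcases not_and_or.mp hcase with hc | hc
    · have hsub : ∀ i j, 0 < x i → 0 < x j → i = j := by
        intro i j hi hj
        have hi' : i ∈ principalBlock M G ∧ 0 < (a i).re := by
          have hm := hxmem i hi.ne'
          rw [hx, if_pos hm] at hi
          exact ⟨hm, hi⟩
        have hj' : j ∈ principalBlock M G ∧ 0 < (a j).re := by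
          have hm := hxmem j hj.ne'
          rw [hx, if_pos hm] at hj
          exact ⟨hm, hj⟩
        have hle : Nat.card {χ : IrrCharacter G // χ ∈ principalBlock M G ∧ 0 < (a χ).re} ≤ 1 := by
          omega
        have hss := Finite.card_le_one_iff_subsingleton.mp hle
        exact congrArg Subtype.val (Subsingleton.elim
          (⟨i, hi'⟩ : {χ : IrrCharacter G // χ ∈ principalBlock M G ∧ 0 < (a χ).re}) ⟨j, hj'⟩)
      obtain ⟨i, hi0, hxi, hei⟩ := real_key x d e hd _ hd0 he0 hx0 hA hB hC hsub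
      exact ⟨i, hi0, hxmem i hxi, by rw [he1, hd1, hei]⟩
    · have hsub : ∀ i j, 0 < -x i → 0 < -x j → i = j := by
        intro i j hi hj
        have hi' : i ∈ principalBlock M G ∧ (a i).re < 0 := by
          have hm := hxmem i (fun h => by rw [h] at hi; simp at hi)
          rw [hx, if_pos hm] at hi
          exact ⟨hm, neg_pos.mp hi⟩
        have hj' : j ∈ principalBlock M G ∧ (a j).re < 0 := by
          have hm := hxmem j (fun h => by rw [h] at hj; simp at hj)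
          rw [hx, if_pos hm] at hj
          exact ⟨hm, neg_pos.mp hj⟩
        have hle : Nat.card {χ : IrrCharacter G // χ ∈ principalBlock M G ∧ (a χ).re < 0} ≤ 1 := by
          omega
        have hss := Finite.card_le_one_iff_subsingleton.mp hle
        exact congrArg Subtype.val (Subsingleton.elim
          (⟨i, hi'⟩ : {χ : IrrCharacter G // χ ∈ principalBlock M G ∧ (a χ).re < 0}) ⟨j, hj'⟩)
      obtain ⟨i, hi0, hxi, hei⟩ := real_key (fun χ => -x χ) d e hd _ hd0 he0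
        (neg_ne_zero.mpr hx0)
        (by simp only [neg_mul, Finset.sum_neg_distrib, hA, neg_zero])
        (by simp only [neg_mul, Finset.sum_neg_distrib, hB, neg_zero])
        (by simp only [neg_mul, Finset.sum_neg_distrib, hC, neg_zero]) hsub
      exact ⟨i, hi0, hxmem i (neg_ne_zero.mp hxi), by rw [he1, hd1, hei]⟩
  by_cases hcase : (2 ≤ Nat.card {χ : IrrCharacter G // χ ∈ principalBlock M G ∧ 0 < (a χ).re} ∧
      2 ≤ Nat.card {χ : IrrCharacter G // χ ∈ principalBlock M G ∧ (a χ).re < 0})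
  · exact Or.inl hcase
  · right
    obtain ⟨χ, hχ0, hχB, hχt⟩ := main hcase
    obtain ⟨K, hKn, hK⟩ := Cfsg.Agent.Lib.CT.Kernel.exists_normal_ker (isCharacter_of_irr χ.2)
    refine ⟨K, hKn, ?_, ?_, (hK t).mpr hχt⟩
    · intro htop
      apply hχ0
      have hall : ∀ g, (χ : G → ℂ) g = (χ : G → ℂ) 1 :=
        fun g => (hK g).mp (htop ▸ Subgroup.mem_top g)
      have h := irr_sum_mul_inv χ.2 (Cfsg.Agent.Lib.CT.ThirdMain.triv G).2
      by_contra hne'
      rw [if_neg (fun h' => hne' (Subtype.ext h'))] at h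
      simp only [Cfsg.Agent.Lib.CT.ThirdMain.coe_triv, mul_one, hall, Finset.sum_const,
        nsmul_eq_mul] at h
      rcases mul_eq_zero.mp h with h | h
      · have hc0 : (Finset.univ : Finset G).card ≠ 0 := Finset.card_ne_zero.mpr ⟨1, Finset.mem_univ _⟩
        exact hc0 (Nat.cast_eq_zero.mp h)
      · exact irr_apply_one_ne_zero χ.2 h
    · intro n hn
      exact (hK n).mpr (Cfsg.Agent.Lib.CT.PrincipalSection.principal_apply_pPrimeCore 2 M hM χ hχB
        n hn)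

end involution

end Cfsg.Agent.Lib.CT.ColumnVanish
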