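import Cfsg.Agent.Lib.CT.ThirdMain
import Cfsg.Agent.Lib.CT.PrincipalSection
import Cfsg.Agent.Lib.CT.BrauerCorr
import Cfsg.Agent.Lib.Helper16.ExtFirst
import Cfsg.Agent.Lib.Helper16.Transfer
import Cfsg.Agent.Lib.Helper16.NormalDefect
import Cfsg.Agent.S4683

/-!
# Deficiency classes

Non-principal blocks of large defect pass between a group and the centralizers of its
`p`-elements.
-/

set_option autoImplicit false
open Cfsg

namespace Cfsg.Agent.Lib.CT.Deficiency

open Cfsg.Agent.Lib.Helper77.LocalRing Cfsg.Agent.Lib.Helper77.BPTransport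
  Cfsg.Agent.Lib.Helper16.Brauer Cfsg.Agent.Lib.Helper16.Transfer
  Cfsg.Agent.Lib.Helper16.ExtFirst Cfsg.Agent.Lib.Helper16.NormalDefect
  Cfsg.Agent.Lib.Helper16.Defect Cfsg.Agent.Lib.Helper16.MinMax
  Cfsg.Agent.Lib.CT.ThirdMain Cfsg.Agent.Lib.CT.PrincipalSection Cfsg.Agent.Lib.CT.BrauerCorr

universe u
variable {G : Type u} [Group G]

/-- A non-principal block of the centralizer of a `p`-element induces a non-principal block of
at least the same defect. -/
theorem down [Finite G] (p : ℕ) [Fact p.Prime] (M : Ideal AlgInt) (hM : IsPModular p M) (r : ℕ)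
    (hG : ∀ B' : Set (IrrCharacter G), IsPBlock M B' → B' ≠ principalBlock M G →
      blockDefect p B' < r)
    (y : G) (hy : ∃ k : ℕ, orderOf y = p ^ k)
    (b : Set (IrrCharacter ↥(Subgroup.centralizer ({y} : Set G)))) (hb : IsPBlock M b)
    (hne : b ≠ principalBlock M ↥(Subgroup.centralizer ({y} : Set G))) : blockDefect p b < r := by
  have hP : IsPGroup p ↥(Subgroup.zpowers y) := by
    obtain ⟨k, hk⟩ := hy
    exact IsPGroup.of_card (n := k) (by rw [Nat.card_zpowers, hk])
  have hPH : Subgroup.zpowers y ≤ Subgroup.centralizer ({y} : Set G) := by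
    rw [Subgroup.zpowers_le, Subgroup.mem_centralizer_iff]
    intro h hh
    rw [Set.mem_singleton_iff.mp hh]
  have hCH : Subgroup.centralizer (Subgroup.zpowers y : Set G) ≤
      Subgroup.centralizer ({y} : Set G) := (Cfsg.Agent.S4683.centralizer_zpowers_eq y).le
  have hHN : Subgroup.centralizer ({y} : Set G) ≤
      Subgroup.normalizer (Subgroup.zpowers y : Set G) := by
    rw [← Cfsg.Agent.S4683.centralizer_zpowers_eq]
    exact Subgroup.centralizer_le_normalizer _
  obtain ⟨B, hB⟩ := inducedBlockDefined_of_local hM (Subgroup.zpowers y)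
    (Subgroup.centralizer ({y} : Set G)) hP hPH hCH hHN b hb
  have hBne : B ≠ principalBlock M G := by
    rintro rfl
    exact hne ((third_main hM _ b ⟨_, hB⟩).mp hB)
  exact lt_of_le_of_lt (blockDefect_le_of_induced p hM _ b B hB) (hG B hB.2.1 hBne)

/-- A non-principal block of positive defect is induced from a non-principal block of the same
defect of the centralizer of an element of order `p`. -/
theorem up [Finite G] (p : ℕ) [Fact p.Prime] (M : Ideal AlgInt) (hM : IsPModular p M) (r : ℕ)
    (hr : 0 < r)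
    (hC : ∀ y : G, orderOf y = p →
      ∀ B' : Set (IrrCharacter ↥(Subgroup.centralizer ({y} : Set G))), IsPBlock M B' →
        B' ≠ principalBlock M ↥(Subgroup.centralizer ({y} : Set G)) → blockDefect p B' < r)
    (B : Set (IrrCharacter G)) (hB : IsPBlock M B) (hBne : B ≠ principalBlock M G) :
    blockDefect p B < r := by
  have hp : p.Prime := Fact.out
  have hMp := isPrime_of_isPModular hM
  by_contra hlt
  rw [not_lt] at hlt
  obtain ⟨D, hD⟩ := exists_defectGroup hM B hB
  have hcard := card_defectGroup p hM B hB D hD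
  have hDp : IsPGroup p ↥D := IsPGroup.of_card hcard
  have hnt : Nontrivial ↥D := by
    rw [← Finite.one_lt_card_iff_nontrivial, hcard]
    exact Nat.one_lt_pow (by omega) hp.one_lt
  have hZ : Nontrivial (Subgroup.center ↥D) := hDp.center_nontrivial
  have hZp : IsPGroup p ↥(Subgroup.center ↥D) := hDp.to_subgroup _
  have hdvd : p ∣ Nat.card ↥(Subgroup.center ↥D) := by
    rcases hZp.card_eq_or_dvd with h | h
    · exact absurd h (Finite.one_lt_card_iff_nontrivial.mpr hZ).ne'
    · exact h
  obtain ⟨z, hz⟩ := exists_prime_orderOf_dvd_card' p hdvd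
  set y : G := ((z : ↥D) : G) with hy_def
  have hy : orderOf y = p := by
    rw [hy_def, Subgroup.orderOf_coe, Subgroup.orderOf_coe, hz]
  have hycomm : ∀ d ∈ D, d * y = y * d := by
    intro d hd
    have := (Subgroup.mem_center_iff.mp z.2) ⟨d, hd⟩
    exact congrArg Subtype.val this
  have hyD : y ∈ D := (z : ↥D).2
  obtain ⟨b₀, hb₀D, hb₀ind⟩ := exists_block_centralizer p hM D
    (D ⊔ Subgroup.centralizer (D : Set G)) le_sup_left le_sup_right
    (sup_centralizer_le_normalizer D) B hB hD
  have hDC : D ≤ Subgroup.centralizer ({y} : Set G) := by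
    intro d hd
    rw [Subgroup.mem_centralizer_iff]
    intro h hh
    rw [Set.mem_singleton_iff.mp hh]
    exact (hycomm d hd).symm
  have hLC : D ⊔ Subgroup.centralizer (D : Set G) ≤ Subgroup.centralizer ({y} : Set G) := by
    refine sup_le hDC ?_
    intro x hx
    rw [Subgroup.mem_centralizer_iff] at hx ⊢
    intro h hh
    rw [Set.mem_singleton_iff.mp hh]
    exact hx y hyD
  have hb' : IsPBlock M (pull (sIso _ _ hLC) '' b₀) := isPBlock_pull _ hb₀ind.1
  have hdef : InducedBlockDefined M
      ((D ⊔ Subgroup.centralizer (D : Set G)).subgroupOf (Subgroup.centralizer ({y} : Set G)))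
      (pull (sIso _ _ hLC) '' b₀) := by
    refine inducedBlockDefined_of_local hM
      (D.subgroupOf (Subgroup.centralizer ({y} : Set G))) _ hDp.comap_subtype ?_ ?_ ?_ _ hb'
    · intro x hx
      exact (le_sup_left : D ≤ D ⊔ Subgroup.centralizer (D : Set G)) hx
    · intro x hx
      exact (le_sup_right : Subgroup.centralizer (D : Set G) ≤ _)
        (coe_mem_centralizer D _ hDC x hx)
    · intro x hx
      have hxN : (x : G) ∈ Subgroup.normalizer (D : Set G) :=
        sup_centralizer_le_normalizer D hx
      rw [Subgroup.mem_normalizer_iff]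
      intro h
      exact (Subgroup.mem_normalizer_iff.mp hxN) (h : G)
  obtain ⟨B₁, hB₁⟩ := hdef
  have h2 : IsInducedBlock M (D ⊔ Subgroup.centralizer (D : Set G))
      (pull (sIso _ _ hLC).symm '' (pull (sIso _ _ hLC) '' b₀)) B := by
    rw [pull_symm_image_pull_image]
    exact hb₀ind
  have hB₁B : IsInducedBlock M (Subgroup.centralizer ({y} : Set G)) B₁ B :=
    isInducedBlock_of_trans hMp _ _ hLC _ B₁ B hB₁ h2
  have hne : B₁ ≠ principalBlock M ↥(Subgroup.centralizer ({y} : Set G)) := by
    rintro rfl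
    have h3 : IsInducedBlock M (Subgroup.centralizer ({y} : Set G))
        (principalBlock M ↥(Subgroup.centralizer ({y} : Set G))) (principalBlock M G) :=
      (third_main hM _ _ ⟨B, hB₁B⟩).mpr rfl
    exact hBne (isInducedBlock_unique hMp _ _ B _ hB₁B h3)
  have hlt1 := hC y hy B₁ hB₁.2.1 hne
  have h4 := blockDefect_le_of_induced p hM _ _ B₁ hB₁
  have h5 : blockDefect p (pull (sIso _ _ hLC) '' b₀) = blockDefect p b₀ :=
    blockDefect_pull p _ b₀
  have h6 : blockDefect p b₀ = blockDefect p B := by
    have hc1 := card_defectGroup p hM b₀ hb₀ind.1 _ hb₀D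
    have hc2 : Nat.card ↥(D.subgroupOf (D ⊔ Subgroup.centralizer (D : Set G))) = Nat.card ↥D :=
      Nat.card_congr (Subgroup.subgroupOfEquivOfLe le_sup_left).toEquiv
    exact Nat.pow_right_injective hp.two_le
      (by show p ^ blockDefect p b₀ = p ^ blockDefect p B; rw [← hc1, hc2, hcard])
  omega

end Cfsg.Agent.Lib.CT.Deficiency
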