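import Cfsg.Agent.S4431
import Cfsg.Agent.Lib.Helper82.Contrib
import Cfsg.Agent.Lib.Helper80.Restrict
import Cfsg.Agent.Lib.CT.Ops

set_option autoImplicit false

namespace Cfsg.Agent.Lib.CT.HeightInd

open Cfsg Cfsg.Agent.Lib.Helper77.LocalRing
  Cfsg.Agent.Lib.CT.Wedderburn Cfsg.Agent.Lib.CT.DefectZeroBlock
  Cfsg.Agent.Lib.Helper82.Contrib Cfsg.Agent.Lib.CT.Orth

open scoped ComplexConjugate

universe u
variable {G : Type u} [Group G]

theorem int_dvd_of_div_mem {p : ℕ} {M : Ideal AlgInt} (hM : IsPModular p M) (c : ℤ) (m' : ℕ)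
    (hm' : ¬ p ∣ m') (h : MemLocalIdeal M ((c : ℂ) / (m' : ℂ))) : (p : ℤ) ∣ c := by
  have hMp := isPrime_of_isPModular hM
  have h0 : (m' : ℂ) ≠ 0 := by
    rw [Nat.cast_ne_zero]
    intro h
    rw [h] at hm'
    exact hm' (dvd_zero p)
  have h1 := memLocalIdeal_mul_right hMp h (memLocalRing_natCast hMp m')
  rw [div_mul_cancel₀ _ h0] at h1
  exact int_dvd_of_memLocalIdeal hM c h1

theorem div_mem_of_int_dvd {p : ℕ} {M : Ideal AlgInt} (hM : IsPModular p M) (c : ℤ) (m' : ℕ)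
    (hm' : ¬ p ∣ m') (h : (p : ℤ) ∣ c) : MemLocalIdeal M ((c : ℂ) / (m' : ℂ)) := by
  have hMp := isPrime_of_isPModular hM
  rw [div_eq_mul_inv]
  exact memLocalIdeal_mul_right hMp (memLocalIdeal_intCast_of_dvd hM c h)
    (memLocalRing_inv_natCast hM hm')

/-- The degree of an irreducible character split into its `p`-part and `p'`-part. -/
theorem irr_one_eq_pow_mul (p : ℕ) (hp : p.Prime) (ψ : IrrCharacter G) :
    (ψ : G → ℂ) 1 = (p : ℂ) ^ (charDegree (ψ : G → ℂ)).factorization p *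
      ((charDegree (ψ : G → ℂ) / p ^ (charDegree (ψ : G → ℂ)).factorization p : ℕ) : ℂ) ∧
    ¬ p ∣ charDegree (ψ : G → ℂ) / p ^ (charDegree (ψ : G → ℂ)).factorization p := by
  refine ⟨?_, Nat.not_dvd_ordCompl hp (irr_charDegree_pos ψ.2).ne'⟩
  rw [← char_natCast_charDegree (isCharacter_of_irr ψ.2)]
  have h1 := Nat.ordProj_mul_ordCompl_eq_self (charDegree (ψ : G → ℂ)) p
  conv_lhs => rw [← h1]
  push_cast
  ring

/-- If `p ^ ν` is the `p`-part of `ψ 1` and `t = p ^ ν * c` is an integer, then `t / ψ 1` is in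
the local ideal iff `p ∣ c`. -/
theorem div_one_mem_iff {p : ℕ} [Fact p.Prime] {M : Ideal AlgInt} (hM : IsPModular p M)
    (ψ : IrrCharacter G) (c : ℤ) :
    MemLocalIdeal M ((((p : ℤ) ^ (charDegree (ψ : G → ℂ)).factorization p * c : ℤ) : ℂ) /
      (ψ : G → ℂ) 1) ↔ (p : ℤ) ∣ c := by
  have hp : p.Prime := Fact.out
  obtain ⟨h1, h2⟩ := irr_one_eq_pow_mul p hp ψ
  have hp0 : (p : ℂ) ^ (charDegree (ψ : G → ℂ)).factorization p ≠ 0 :=
    pow_ne_zero _ (by exact_mod_cast hp.ne_zero)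
  have e : (((p : ℤ) ^ (charDegree (ψ : G → ℂ)).factorization p * c : ℤ) : ℂ) /
      (ψ : G → ℂ) 1 = (c : ℂ) /
      ((charDegree (ψ : G → ℂ) / p ^ (charDegree (ψ : G → ℂ)).factorization p : ℕ) : ℂ) := by
    rw [h1]
    push_cast
    rw [mul_div_mul_left _ _ hp0]
  rw [e]
  exact ⟨int_dvd_of_div_mem hM c _ h2, div_mem_of_int_dvd hM c _ h2⟩

/-- **Brauer**: if `b^G = B` and `χ ∈ B` has height zero, then some `ξ ∈ b` of height zero has
multiplicity prime to `p` in the restriction of `χ`. -/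
theorem exists_height_zero_constituent [Fintype G] (p : ℕ) [Fact p.Prime] (M : Ideal AlgInt)
    (hM : IsPModular p M) (H : Subgroup G) [Fintype H] (b : Set (IrrCharacter H))
    (B : Set (IrrCharacter G)) (hind : IsInducedBlock M H b B) (χ : IrrCharacter G)
    (hχ : χ ∈ B) (h0 : blockHeight p B (χ : G → ℂ) = 0) :
    ∃ ξ ∈ b, blockHeight p b (ξ : H → ℂ) = 0 ∧ ∃ n : ℕ,
      classInner (fun h : H => (χ : G → ℂ) h) (ξ : H → ℂ) = (n : ℂ) ∧ ¬ p ∣ n := by
  classical
  have hp : p.Prime := Fact.out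
  have hMp := isPrime_of_isPModular hM
  have := finite_irrCharacter H
  have := Fintype.ofFinite (IrrCharacter H)
  have hb : IsPBlock M b := hind.1
  obtain ⟨ψ, hψ⟩ := isPBlock_nonempty hMp hb
  have hres : IsCharacter H (fun h : H => (χ : G → ℂ) h) :=
    Cfsg.Agent.Lib.CT.Ops.isCharacter_restrict H (isCharacter_of_irr χ.2)
  obtain ⟨m, hm, hexp, -, -⟩ := Cfsg.Agent.Lib.Helper80.Restrict.exists_mult hres
  have key := (Cfsg.Agent.S4431.result p M hM H b B hind χ ψ hψ).2 hχ h0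
  have hη : (fun h : H => if p ∣ orderOf h then (0 : ℂ) else
      ((p ^ (Nat.card H).factorization p : ℕ) : ℂ) * (χ : G → ℂ) h) =
      ∑ ξ : IrrCharacter H, (m ξ : ℂ) •
        tw p ((p ^ (Nat.card H).factorization p : ℕ) : ℂ) (ξ : H → ℂ) := by
    funext h
    rw [Finset.sum_apply]
    simp only [Pi.smul_apply, smul_eq_mul, tw_apply]
    by_cases hh : p ∣ orderOf h
    · simp [hh]
    · simp only [if_neg hh]
      rw [hexp h, Finset.mul_sum]
      refine Finset.sum_congr rfl fun ξ _ => by ring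
  have hinner : classInner (fun h : H => if p ∣ orderOf h then (0 : ℂ) else
      ((p ^ (Nat.card H).factorization p : ℕ) : ℂ) * (χ : G → ℂ) h) (ψ : H → ℂ) =
      ∑ ξ : IrrCharacter H, (m ξ : ℂ) * (ctr p ξ ψ : ℂ) := by
    rw [hη, classInner_sum_left]
    refine Finset.sum_congr rfl fun ξ _ => ?_
    rw [classInner_smul_left, ctr_spec]
  rw [hinner, Finset.sum_div] at key
  have hex : ∃ ξ : IrrCharacter H,
      ¬ MemLocalIdeal M ((m ξ : ℂ) * (ctr p ξ ψ : ℂ) / (ψ : H → ℂ) 1) := by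
    by_contra hcon
    push Not at hcon
    exact key (memLocalIdeal_sum hMp _ _ fun ξ _ => hcon ξ)
  obtain ⟨ξ, hξ⟩ := hex
  have hdvd : (p : ℤ) ^ (charDegree (ψ : H → ℂ)).factorization p ∣ ctr p ξ ψ := by
    rw [ctr_symm]
    exact pow_dvd_ctr p hM ψ ξ
  obtain ⟨c, hc⟩ := hdvd
  have hterm : (m ξ : ℂ) * (ctr p ξ ψ : ℂ) / (ψ : H → ℂ) 1 =
      (((p : ℤ) ^ (charDegree (ψ : H → ℂ)).factorization p * ((m ξ : ℤ) * c) : ℤ) : ℂ) /
        (ψ : H → ℂ) 1 := by
    rw [hc]
    push_cast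
    ring
  rw [hterm, div_one_mem_iff hM ψ] at hξ
  have hξb : ξ ∈ b := by
    by_contra hnb
    have h1 : ctr p ξ ψ = 0 := by
      rw [ctr_symm]
      exact ctr_eq_zero_of_not_mem p hM b hb ψ ξ hψ hnb
    rw [h1] at hc
    have hc0 : c = 0 := by
      rcases mul_eq_zero.mp hc.symm with h2 | h2
      · exact absurd h2 (pow_ne_zero _ (by exact_mod_cast hp.ne_zero))
      · exact h2
    apply hξ
    rw [hc0, mul_zero]
    exact dvd_zero _
  refine ⟨ξ, hξb, ?_, m ξ, hm ξ, ?_⟩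
  · by_contra hne
    have himg : ((fun φ : IrrCharacter H => (charDegree (φ : H → ℂ)).factorization p) '' b).Nonempty :=
      ⟨_, ξ, hξb, rfl⟩
    obtain ⟨χ₁, hχ₁, he⟩ := Nat.sInf_mem himg
    have hlt : (charDegree (χ₁ : H → ℂ)).factorization p <
        (charDegree (ξ : H → ℂ)).factorization p := by
      unfold blockHeight at hne
      have he' : (charDegree (χ₁ : H → ℂ)).factorization p =
          sInf ((fun φ : IrrCharacter H => (charDegree (φ : H → ℂ)).factorization p) '' b) := he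
      omega
    have hd := dvd_ctr_of_not_min p hM b hb ξ ψ χ₁ hξb hψ hχ₁ hlt
    rw [hc, pow_succ] at hd
    have hp0 : (p : ℤ) ^ (charDegree (ψ : H → ℂ)).factorization p ≠ 0 :=
      pow_ne_zero _ (by exact_mod_cast hp.ne_zero)
    have hpc : (p : ℤ) ∣ c := (mul_dvd_mul_iff_left hp0).mp hd
    exact hξ (Dvd.dvd.mul_left hpc _)
  · intro hpm
    apply hξ
    have : (p : ℤ) ∣ (m ξ : ℤ) := by exact_mod_cast hpm
    exact Dvd.dvd.mul_right this _

/-- **Brauer**: let `χ` and its irreducible restriction to `H` have height zero.  A block of `H`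
whose induced block is defined induces the block of `χ` iff it is the block of the
restriction. -/
theorem induced_iff_of_irr_restrict [Finite G] (p : ℕ) [Fact p.Prime] (M : Ideal AlgInt)
    (hM : IsPModular p M) (H : Subgroup G) (χ : IrrCharacter G)
    (hres : IsIrrCharacter H (fun h : H => (χ : G → ℂ) h))
    (hχ0 : blockHeight p (blockOf M (χ : G → ℂ)) (χ : G → ℂ) = 0)
    (hψ0 : blockHeight p (blockOf M (fun h : H => (χ : G → ℂ) h))
      (fun h : H => (χ : G → ℂ) h) = 0)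
    (e : Set (IrrCharacter H)) (he : InducedBlockDefined M H e) :
    IsInducedBlock M H e (blockOf M (χ : G → ℂ)) ↔
      e = blockOf M (fun h : H => (χ : G → ℂ) h) := by
  classical
  have hp : p.Prime := Fact.out
  have hMp := isPrime_of_isPModular hM
  let _ : Fintype G := Fintype.ofFinite G
  let _ : Fintype H := Fintype.ofFinite H
  let ψ₀ : IrrCharacter H := ⟨fun h : H => (χ : G → ℂ) h, hres⟩
  have hχB : χ ∈ blockOf M (χ : G → ℂ) :=
    Cfsg.Agent.Lib.Helper77.DefectClass.self_mem_blockOf hMp χ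
  have hψb : ψ₀ ∈ blockOf M (ψ₀ : H → ℂ) :=
    Cfsg.Agent.Lib.Helper77.DefectClass.self_mem_blockOf hMp ψ₀
  constructor
  · intro hind
    obtain ⟨ξ, hξe, -, n, hn, hpn⟩ := exists_height_zero_constituent p M hM H e _ hind χ hχB hχ0
    have hn0 : n ≠ 0 := by
      rintro rfl
      exact hpn (dvd_zero p)
    have h1 : classInner (ψ₀ : H → ℂ) (ξ : H → ℂ) = (n : ℂ) := hn
    rw [irr_orthonormal] at h1
    have hξ : ψ₀ = ξ := by
      by_contra hne
      rw [if_neg hne] at h1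
      exact hn0 (by exact_mod_cast h1.symm)
    rw [← hξ] at hξe
    exact eq_blockOf_of_mem hMp hind.1 hξe
  · intro hee
    obtain ⟨B', hB'⟩ := he
    rw [hee] at hB' ⊢
    have hb : IsPBlock M (blockOf M (ψ₀ : H → ℂ)) := isPBlock_blockOf ψ₀
    have hχB' : χ ∈ B' := by
      by_contra hnot
      have h1 := (Cfsg.Agent.S4431.result p M hM H _ B' hB' χ ψ₀ hψb).1 hnot
      have h2 : (fun h : H => if p ∣ orderOf h then (0 : ℂ) else
          ((p ^ (Nat.card H).factorization p : ℕ) : ℂ) * (χ : G → ℂ) h) =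
          tw p ((p ^ (Nat.card H).factorization p : ℕ) : ℂ) (ψ₀ : H → ℂ) := rfl
      rw [h2, ctr_spec] at h1
      have hdvd : (p : ℤ) ^ (charDegree (ψ₀ : H → ℂ)).factorization p ∣ ctr p ψ₀ ψ₀ :=
        pow_dvd_ctr p hM ψ₀ ψ₀
      obtain ⟨c, hc⟩ := hdvd
      rw [hc, div_one_mem_iff hM ψ₀] at h1
      have hmin : ∀ ξ ∈ blockOf M (ψ₀ : H → ℂ), (charDegree (ψ₀ : H → ℂ)).factorization p ≤
          (charDegree (ξ : H → ℂ)).factorization p := by
        intro ξ hξ
        have h3 : blockHeight p (blockOf M (ψ₀ : H → ℂ)) (ψ₀ : H → ℂ) = 0 := hψ0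
        unfold blockHeight at h3
        have h4 : sInf ((fun φ : IrrCharacter H => (charDegree (φ : H → ℂ)).factorization p) ''
            blockOf M (ψ₀ : H → ℂ)) ≤ (charDegree (ξ : H → ℂ)).factorization p :=
          Nat.sInf_le ⟨ξ, hξ, rfl⟩
        omega
      have hnd := not_dvd_ctr_of_min p hM _ hb ψ₀ ψ₀ hψb hψb hmin
      apply hnd
      rw [hc, pow_succ]
      exact mul_dvd_mul_left _ h1
    have hBeq : B' = blockOf M (χ : G → ℂ) := eq_blockOf_of_mem hMp hB'.2.1 hχB'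
    rw [← hBeq]
    exact hB'

end Cfsg.Agent.Lib.CT.HeightInd
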