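import Cfsg.Agent.Lib.Helper16.Normal
import Cfsg.Agent.Lib.CT.MatCoeff
import Cfsg.Agent.Lib.Helper15.DetChar

/-!
# Projections to the characters over an invariant character, and a coset identity

* `proj_apply`: for `N ⊴ G`, `ϑ ∈ Irr(N)` invariant in `G` and `χ ∈ Irr(G)`,
  `∑ n, e_ϑ(n) χ(n y) = ω_χ(e_ϑ) χ(y)`.
* `proj_sum`: the same for a weighted sum of irreducible characters.
* `inner_sum`: the inner product of two weighted sums of irreducible characters.
* `coset_identity`: for `N ≤ H`, `N ⊴ G`, a representation `R` of `H` restricting irreducibly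
  to `N`, a function `F` invariant under conjugation by `N` and `y ∈ H`:
  `∑ n, ψ(n⁻¹) F(n y) = ψ(y)/d * ∑ n, F(n y) ψ((n y)⁻¹)`.
-/

set_option autoImplicit false
open Cfsg

namespace Cfsg.Agent.Lib.CT.KO1

open Cfsg.Agent.Lib.Helper77.CentralChar Cfsg.Agent.Lib.Helper77.ClassSum
  Cfsg.Agent.Lib.Helper77.BlockIdem Cfsg.Agent.Lib.Helper16.Normal
  Cfsg.Agent.Lib.CT.Wedderburn Cfsg.Agent.Lib.CT.MatCoeff
open scoped ComplexConjugate

universe u
variable {G : Type u} [Group G]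

theorem pair_shift_iota (N : Subgroup G) (χ : G → ℂ) (a : MonoidAlgebra ℂ N) (y : G) :
    pair χ (iota N a * MonoidAlgebra.single y 1) = pair (fun n : N => χ ((n : G) * y)) a := by
  induction a using MonoidAlgebra.induction_on with
  | of n =>
    rw [MonoidAlgebra.of_apply, iota_single, MonoidAlgebra.single_mul_single, pair_single,
      pair_single, mul_one]
  | add x z hx hz => rw [map_add, add_mul, pair_add, pair_add, hx, hz]
  | smul r x hx => rw [map_smul, smul_mul_assoc, pair_smul, pair_smul, hx]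

theorem blockCoeff_singleton (ϑ : IrrCharacter G) (g : G) :
    blockCoeff ({ϑ} : Set (IrrCharacter G)) g
      = (Nat.card G : ℂ)⁻¹ * ((ϑ : G → ℂ) 1 * conj ((ϑ : G → ℂ) g)) := by
  unfold blockCoeff
  rw [finsum_mem_singleton]

theorem gstable_singleton (N : Subgroup G) (hN : N.Normal) (ϑ : IrrCharacter N)
    (hinv : ∀ g : G, cI N hN g ϑ = ϑ) : GStable N hN ({ϑ} : Set (IrrCharacter N)) := by
  intro θ' hθ' g
  rw [Set.mem_singleton_iff] at hθ' ⊢
  rw [hθ']
  exact hinv g

/-- The projection to the characters over an invariant `ϑ`, evaluated at `y`. -/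
theorem proj_apply [Finite G] (N : Subgroup G) [Fintype N] (hN : N.Normal) (ϑ : IrrCharacter N)
    (hinv : ∀ g : G, cI N hN g ϑ = ϑ) (χ : IrrCharacter G) (y : G) :
    ∑ n : N, (Nat.card N : ℂ)⁻¹ * ((ϑ : N → ℂ) 1 * conj ((ϑ : N → ℂ) n))
        * (χ : G → ℂ) ((n : G) * y)
      = omega (χ : G → ℂ) (iota N (blockIdem ({ϑ} : Set (IrrCharacter N)))) * (χ : G → ℂ) y := by
  have hS := gstable_singleton N hN ϑ hinv
  have hc := iota_mem_center N hN _ (ginv_blockIdem N hN _ hS)
  have h1 := pair_mul_center χ.2 (iota N (blockIdem ({ϑ} : Set (IrrCharacter N))))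
    (MonoidAlgebra.single y 1) hc
  rw [pair_shift_iota, pair_single, one_mul, pair_eq_sum] at h1
  rw [← h1]
  apply Finset.sum_congr rfl
  intro n _
  rw [coeff_blockIdem, blockCoeff_singleton]

/-- The projection of a weighted sum of irreducible characters. -/
theorem proj_sum [Finite G] [Fintype (IrrCharacter G)] (N : Subgroup G) [Fintype N]
    (hN : N.Normal) (ϑ : IrrCharacter N) (hinv : ∀ g : G, cI N hN g ϑ = ϑ)
    (a : IrrCharacter G → ℂ) (y : G) :
    ∑ n : N, (Nat.card N : ℂ)⁻¹ * ((ϑ : N → ℂ) 1 * conj ((ϑ : N → ℂ) n))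
        * ∑ χ : IrrCharacter G, a χ * (χ : G → ℂ) ((n : G) * y)
      = ∑ χ : IrrCharacter G,
          a χ * omega (χ : G → ℂ) (iota N (blockIdem ({ϑ} : Set (IrrCharacter N))))
            * (χ : G → ℂ) y := by
  simp only [Finset.mul_sum]
  rw [Finset.sum_comm]
  apply Finset.sum_congr rfl
  intro χ _
  rw [mul_assoc, ← proj_apply N hN ϑ hinv χ y, Finset.mul_sum]
  apply Finset.sum_congr rfl
  intro n _
  ring

/-- Inner product of two weighted sums of irreducible characters. -/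
theorem inner_sum [Fintype G] [Fintype (IrrCharacter G)] (a b : IrrCharacter G → ℂ) :
    ∑ x : G, (∑ χ : IrrCharacter G, a χ * (χ : G → ℂ) x)
        * conj (∑ χ : IrrCharacter G, b χ * (χ : G → ℂ) x)
      = (Nat.card G : ℂ) * ∑ χ : IrrCharacter G, a χ * conj (b χ) := by
  classical
  have hne : (Nat.card G : ℂ) ≠ 0 := Nat.cast_ne_zero.mpr Nat.card_pos.ne'
  have h1 : ∀ x : G, (∑ χ : IrrCharacter G, a χ * (χ : G → ℂ) x)
        * conj (∑ χ : IrrCharacter G, b χ * (χ : G → ℂ) x)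
      = ∑ χ : IrrCharacter G, ∑ ψ : IrrCharacter G,
          a χ * conj (b ψ) * ((χ : G → ℂ) x * conj ((ψ : G → ℂ) x)) := by
    intro x
    rw [map_sum, Finset.sum_mul_sum]
    apply Finset.sum_congr rfl
    intro χ _
    apply Finset.sum_congr rfl
    intro ψ _
    rw [map_mul]
    ring
  simp only [h1]
  rw [Finset.sum_comm, Finset.mul_sum]
  apply Finset.sum_congr rfl
  intro χ _
  rw [Finset.sum_comm]
  have h2 : ∀ ψ : IrrCharacter G, ∑ x : G,
      a χ * conj (b ψ) * ((χ : G → ℂ) x * conj ((ψ : G → ℂ) x))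
      = a χ * conj (b ψ) * ((Nat.card G : ℂ) * if χ = ψ then 1 else 0) := by
    intro ψ
    rw [← Finset.mul_sum]
    congr 1
    have h3 := irr_orthonormal χ ψ
    unfold classInner at h3
    rw [← h3, ← mul_assoc, mul_inv_cancel₀ hne, one_mul]
  simp only [h2]
  rw [Finset.sum_eq_single χ]
  · rw [if_pos rfl]
    ring
  · intro ψ _ hψ
    rw [if_neg (fun h => hψ h.symm)]
    ring
  · intro h
    exact absurd (Finset.mem_univ _) h

/-- Relative averaging: for a representation `R` of `H` restricting irreducibly to `N`. -/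
theorem rel_avg [Fintype G] (N H : Subgroup G) [Fintype N] (hNH : N ≤ H) {d : ℕ}
    (R : Representation ℂ H (Fin d → ℂ)) (σ : Representation ℂ N (Fin d → ℂ)) [σ.IsIrreducible]
    (hσ : ∀ n : N, σ n = R ⟨(n : G), hNH n.2⟩) (a b : H) :
    ∑ w : N, R.character (a * ⟨(w : G), hNH w.2⟩ * b * (⟨(w : G), hNH w.2⟩ : H)⁻¹)
      = (Fintype.card N : ℂ) * R.character b / d * R.character a := by
  have hm : ∀ w : N, mat σ w = mat R ⟨(w : G), hNH w.2⟩ := by
    intro w
    rw [mat_def, mat_def, hσ]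
  have hinv : ∀ w : N, (⟨(w : G), hNH w.2⟩ : H)⁻¹ = ⟨((w⁻¹ : N) : G), hNH (w⁻¹).2⟩ := by
    intro w
    apply Subtype.ext
    simp
  have h1 : ∀ w : N, R.character (a * ⟨(w : G), hNH w.2⟩ * b * (⟨(w : G), hNH w.2⟩ : H)⁻¹)
      = (mat R a * (mat σ w * mat R b * mat σ w⁻¹)).trace := by
    intro w
    rw [character_eq_trace, mat_mul, mat_mul, mat_mul, hm w, hm w⁻¹, hinv w]
    simp only [Matrix.mul_assoc]
  simp only [h1]
  rw [← Matrix.trace_sum, ← Matrix.mul_sum, average_conj σ (mat R b), Matrix.mul_smul,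
    Matrix.mul_one, Matrix.trace_smul, smul_eq_mul, ← character_eq_trace, ← character_eq_trace]

/-- The coset identity. -/
theorem coset_identity [Fintype G] (N H : Subgroup G) [hN : N.Normal] [Fintype N] (hNH : N ≤ H)
    {d : ℕ} (R : Representation ℂ H (Fin d → ℂ)) (σ : Representation ℂ N (Fin d → ℂ))
    [σ.IsIrreducible] (hσ : ∀ n : N, σ n = R ⟨(n : G), hNH n.2⟩) (F : G → ℂ)
    (hF : ∀ (w : N) (x : G), F ((w : G) * x * (w : G)⁻¹) = F x) (y : G) (hy : y ∈ H) :
    ∑ n : N, σ.character n⁻¹ * F ((n : G) * y)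
      = R.character ⟨y, hy⟩ / d
        * ∑ n : N, F ((n : G) * y)
            * R.character (⟨(n : G) * y, H.mul_mem (hNH n.2) hy⟩ : H)⁻¹ := by
  classical
  have hcard : (Fintype.card N : ℂ) ≠ 0 := by
    exact_mod_cast Fintype.card_ne_zero
  have hchar : ∀ n : N, σ.character n = R.character ⟨(n : G), hNH n.2⟩ := by
    intro n
    unfold Representation.character
    rw [hσ]
  -- the element `c_w = y w⁻¹ y⁻¹`
  have hcw : ∀ w : N, y * (w : G)⁻¹ * y⁻¹ ∈ N := fun w => hN.conj_mem _ (N.inv_mem w.2) y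
  have hA : ∀ w : N, ∑ n : N, σ.character n⁻¹ * F ((n : G) * y)
      = ∑ n : N, R.character ((⟨y, hy⟩ : H) * ⟨(w : G), hNH w.2⟩
          * (⟨(n : G) * y, H.mul_mem (hNH n.2) hy⟩ : H)⁻¹ * (⟨(w : G), hNH w.2⟩ : H)⁻¹)
          * F ((n : G) * y) := by
    intro w
    rw [← Equiv.sum_comp ((Equiv.mulLeft w).trans (Equiv.mulRight ⟨y * (w : G)⁻¹ * y⁻¹, hcw w⟩))]
    apply Finset.sum_congr rfl
    intro n _
    have e1 : ((((Equiv.mulLeft w).trans (Equiv.mulRight ⟨y * (w : G)⁻¹ * y⁻¹, hcw w⟩)) n : N) : G)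
        = (w : G) * (n : G) * (y * (w : G)⁻¹ * y⁻¹) := rfl
    have e2 : (w : G) * (n : G) * (y * (w : G)⁻¹ * y⁻¹) * y = (w : G) * ((n : G) * y) * (w : G)⁻¹ := by
      group
    rw [e1, e2, hF w, hchar]
    congr 2
    apply Subtype.ext
    simp only [Subgroup.coe_mul, Subgroup.coe_inv, Equiv.trans_apply, Equiv.coe_mulLeft,
      Equiv.coe_mulRight]
    group
  have hB : (Fintype.card N : ℂ) * ∑ n : N, σ.character n⁻¹ * F ((n : G) * y)
      = ∑ w : N, ∑ n : N, σ.character n⁻¹ * F ((n : G) * y) := by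
    rw [Finset.sum_const, Finset.card_univ, nsmul_eq_mul]
  have hC : ∑ w : N, ∑ n : N, σ.character n⁻¹ * F ((n : G) * y)
      = ∑ n : N, ((Fintype.card N : ℂ)
          * R.character (⟨(n : G) * y, H.mul_mem (hNH n.2) hy⟩ : H)⁻¹ / d
          * R.character ⟨y, hy⟩) * F ((n : G) * y) := by
    rw [Finset.sum_congr rfl (fun w _ => hA w), Finset.sum_comm]
    apply Finset.sum_congr rfl
    intro n _
    rw [← Finset.sum_mul, rel_avg N H hNH R σ hσ]
  rw [hC] at hB
  apply mul_left_cancel₀ hcard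
  rw [hB, Finset.mul_sum, Finset.mul_sum]
  apply Finset.sum_congr rfl
  intro n _
  ring

end Cfsg.Agent.Lib.CT.KO1
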