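import Mathlib
import Cfsg.Agent.Lib.Helper75.Section2

/-!
# Counting `k - l` over all `p`-elements, for unions of blocks

For a set `U` of irreducible characters of `K` which is a union of `p`-blocks,
`|K| (k(U) - l(U))` is the sum over the non-identity `p`-elements `y` of
`|C_K(y)|` times the sum of `⟨ψ°, ψ⟩` over the irreducible characters `ψ` of `C_K(y)` whose block
induces a block inside `U`.
-/

set_option autoImplicit false

namespace Cfsg.Agent.Lib.CT.KR1

open Cfsg Cfsg.Agent.Lib.CT.Wedderburn Cfsg.Agent.Lib.CT.FrobRec Cfsg.Agent.Lib.CT.SectionOrth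
  Cfsg.Agent.Lib.Helper75.BlockRank Cfsg.Agent.Lib.Helper75.Section
  Cfsg.Agent.Lib.Helper75.Section2
  Cfsg.Agent.Lib.Helper77.LocalRing Cfsg.Agent.Lib.CT.DefectZeroBlock
  Cfsg.Agent.Lib.Helper77.DefectClass
open scoped ComplexConjugate

universe u
variable {G : Type u} [Group G]

/-- `|G| · l(U)` as an average, for a set `U` whose span is stable under truncation. -/
theorem card_mul_rank [Fintype G] (p : ℕ) (U : Set (IrrCharacter G))
    (hU : ∀ χ ∈ U, pRegularPart p (χ : G → ℂ) ∈
      Submodule.span ℂ ((fun χ : IrrCharacter G => (χ : G → ℂ)) '' U)) :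
    (Nat.card G : ℂ) * (blockRank p U : ℂ) =
      ∑ x : G, ∑ᶠ χ ∈ U, pRegularPart p (χ : G → ℂ) x * (χ : G → ℂ) x⁻¹ := by
  classical
  have := finite_irrCharacter G
  have := Fintype.ofFinite (IrrCharacter G)
  have : Fintype ↥U := Fintype.ofFinite _
  set v : ↥U → (G → ℂ) := fun i => ((i : IrrCharacter G) : G → ℂ) with hv
  have horth : ∀ i j : ↥U, innerL (v i) (v j) = if i = j then 1 else 0 := by
    intro i j
    rw [innerL_apply, irr_orthonormal]
    by_cases h : i = j
    · subst h; simp
    · rw [if_neg h, if_neg]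
      intro h'
      exact h (Subtype.ext h'.symm)
  have hli : LinearIndependent ℂ v :=
    LinearIndependent.of_pairwise_dual_eq_zero_one v (fun i => innerL (v i))
      (fun i j hij => by show innerL (v i) (v j) = 0; rw [horth, if_neg hij])
      (fun i => by rw [horth, if_pos rfl])
  have hrange : Set.range v = (fun χ : IrrCharacter G => (χ : G → ℂ)) '' U := by
    ext f
    constructor
    · rintro ⟨i, rfl⟩
      exact ⟨i.1, i.2, rfl⟩
    · rintro ⟨χ, hχ, rfl⟩
      exact ⟨⟨χ, hχ⟩, rfl⟩
  set V : Submodule ℂ (G → ℂ) := Submodule.span ℂ (Set.range v) with hV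
  have hTV : ∀ f ∈ V, trunc p f ∈ V := by
    intro f hf
    refine Submodule.span_induction (p := fun f _ => trunc p f ∈ V) ?_ ?_ ?_ ?_ hf
    · rintro _ ⟨i, rfl⟩
      rw [hV, hrange]
      exact hU i.1 i.2
    · rw [map_zero]; exact Submodule.zero_mem _
    · intro a b _ _ ha hb
      rw [map_add]; exact Submodule.add_mem _ ha hb
    · intro c a _ ha
      rw [map_smul]; exact Submodule.smul_mem _ _ ha
  set TV : ↥V →ₗ[ℂ] ↥V := (trunc p).restrict hTV with hTVdef
  have hidem : IsIdempotentElem TV := by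
    refine LinearMap.ext fun f => Subtype.ext ?_
    change trunc p (trunc p (f : G → ℂ)) = trunc p (f : G → ℂ)
    exact trunc_trunc p _
  have hproj := (LinearMap.isProj_range_iff_isIdempotentElem TV).mpr hidem
  have : Module.Free ℂ ↥(LinearMap.range TV) := by
    exact Module.Free.of_divisionRing ℂ ↥(LinearMap.range TV)
  have : Module.Free ℂ ↥(LinearMap.ker TV) := by
    exact Module.Free.of_divisionRing ℂ ↥(LinearMap.ker TV)
  have htr := hproj.trace
  have hrank : Module.finrank ℂ ↥(LinearMap.range TV) = blockRank p U := by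
    rw [← Submodule.finrank_map_subtype_eq V (LinearMap.range TV)]
    unfold blockRank
    have hmap : Submodule.map V.subtype (LinearMap.range TV) =
        Submodule.span ℂ ((fun χ : IrrCharacter G => pRegularPart p (χ : G → ℂ)) '' U) := by
      rw [hTVdef, LinearMap.range_restrict, Submodule.map_comap_subtype]
      have hle : Submodule.map (trunc p) V ≤ V := by
        rintro _ ⟨f, hf, rfl⟩
        exact hTV f hf
      rw [inf_eq_right.mpr hle, hV, Submodule.map_span, hrange, Set.image_image]
      rfl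
    rw [hmap]
  set b : Module.Basis ↥U ℂ ↥V := Module.Basis.span hli with hb
  have hbi : ∀ i : ↥U, ((b i : ↥V) : G → ℂ) = v i := fun i => Module.Basis.coe_span_apply hli i
  have hrepr : ∀ (f : ↥V) (i : ↥U), b.repr f i = innerL (v i) (f : G → ℂ) := by
    intro f i
    have hcoord : b.coord i = (innerL (v i)).comp V.subtype := by
      refine b.ext fun j => ?_
      rw [Module.Basis.coord_apply, Module.Basis.repr_self, LinearMap.comp_apply,
        Submodule.subtype_apply, hbi, horth, Finsupp.single_apply]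
      by_cases h : i = j
      · rw [if_pos h, if_pos h.symm]
      · rw [if_neg h, if_neg (fun h' => h h'.symm)]
    have := congrArg (fun φ => φ f) hcoord
    simpa using this
  have htr2 : LinearMap.trace ℂ ↥V TV =
      ∑ i : ↥U, classInner (pRegularPart p (v i)) (v i) := by
    rw [LinearMap.trace_eq_matrix_trace ℂ b TV, Matrix.trace]
    refine Finset.sum_congr rfl fun i _ => ?_
    rw [Matrix.diag_apply, LinearMap.toMatrix_apply, hrepr, hTVdef,
      LinearMap.coe_restrict_apply, hbi, innerL_apply, trunc_apply]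
  have hne : (Nat.card G : ℂ) ≠ 0 := Nat.cast_ne_zero.mpr Nat.card_pos.ne'
  rw [← hrank, ← htr, htr2, Finset.mul_sum]
  have hfin : ∀ x : G, (∑ᶠ χ ∈ U, pRegularPart p (χ : G → ℂ) x * (χ : G → ℂ) x⁻¹) =
      ∑ i : ↥U, pRegularPart p (v i) x * conj (v i x) := by
    intro x
    rw [← finsum_set_coe_eq_finsum_mem (f := fun χ : IrrCharacter G =>
      pRegularPart p (χ : G → ℂ) x * (χ : G → ℂ) x⁻¹) U, finsum_eq_sum_of_fintype]
    refine Finset.sum_congr rfl fun i _ => ?_
    rw [char_apply_inv (isCharacter_of_irr i.1.2)]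
  rw [Finset.sum_congr rfl (fun x _ => hfin x), Finset.sum_comm]
  refine Finset.sum_congr rfl fun i _ => ?_
  unfold classInner
  rw [← mul_assoc, mul_inv_cancel₀ hne, one_mul]

/-- A set of irreducible characters which is a union of blocks. -/
def Closed (M : Ideal AlgInt) (U : Set (IrrCharacter G)) : Prop :=
  ∀ χ ∈ U, blockOf M (χ : G → ℂ) ⊆ U

theorem closed_span [Finite G] (p : ℕ) [Fact p.Prime] (M : Ideal AlgInt)
    (hM : IsPModular p M) (U : Set (IrrCharacter G)) (hU : Closed M U) :
    ∀ χ ∈ U, pRegularPart p (χ : G → ℂ) ∈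
      Submodule.span ℂ ((fun χ : IrrCharacter G => (χ : G → ℂ)) '' U) := by
  intro χ hχ
  have hMp := isPrime_of_isPModular hM
  have h := pRegularPart_mem_span p M hM (blockOf M (χ : G → ℂ)) (isPBlock_blockOf χ) χ
    (self_mem_blockOf hMp χ)
  exact Submodule.span_mono (Set.image_mono (hU χ hχ)) h

open Classical in
/-- Every element has exactly one `p`-part. -/
theorem sum_sections [Fintype G] {p : ℕ} (hp : p.Prime) (F : G → ℂ) :
    ∑ g : G, F g = ∑ y : G, ∑ g : G, if IsPPart p g y then F g else 0 := by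
  classical
  rw [Finset.sum_comm]
  refine Finset.sum_congr rfl fun g _ => ?_
  obtain ⟨z, hz⟩ := exists_isPPart p hp g
  rw [Finset.sum_eq_single z]
  · rw [if_pos hz]
  · intro y _ hy
    rw [if_neg]
    intro h
    exact hy (isPPart_unique hp h hz)
  · intro h; exact absurd (Finset.mem_univ z) h

open Classical in
/-- The elements with `p`-part `y` are the `y * c`, `c` a `p`-regular element of `C(y)`. -/
theorem sum_isPPart [Fintype G] (p : ℕ) (y : G) [Fintype (Subgroup.centralizer ({y} : Set G))]
    (hy : ∃ k : ℕ, orderOf y = p ^ k) (F : G → ℂ) :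
    ∑ g : G, (if IsPPart p g y then F g else 0) =
      ∑ c : Subgroup.centralizer ({y} : Set G),
        if ¬ p ∣ orderOf c then F (y * (c : G)) else 0 := by
  classical
  rw [← sum_extendByZero (Subgroup.centralizer ({y} : Set G))
    (fun c => if ¬ p ∣ orderOf c then F (y * (c : G)) else 0)]
  rw [← Fintype.sum_equiv (Equiv.mulLeft y⁻¹)
    (fun g => extendByZero (Subgroup.centralizer ({y} : Set G))
      (fun c => if ¬ p ∣ orderOf c then F (y * (c : G)) else 0) (y⁻¹ * g))
    (fun g => extendByZero (Subgroup.centralizer ({y} : Set G))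
      (fun c => if ¬ p ∣ orderOf c then F (y * (c : G)) else 0) g) (fun g => rfl)]
  refine Finset.sum_congr rfl fun g _ => ?_
  by_cases hmem : y⁻¹ * g ∈ Subgroup.centralizer ({y} : Set G)
  · rw [extendByZero_apply_of_mem _ _ hmem]
    have hcomm : Commute y (y⁻¹ * g) := by
      rw [Subgroup.mem_centralizer_iff] at hmem
      exact (hmem y (Set.mem_singleton y))
    by_cases hreg : p ∣ orderOf (y⁻¹ * g)
    · have hreg' : p ∣ orderOf (⟨y⁻¹ * g, hmem⟩ : Subgroup.centralizer ({y} : Set G)) := by
        rwa [Subgroup.orderOf_mk]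
      rw [if_neg (not_not.mpr hreg'), if_neg]
      rintro ⟨c, hc, _, _, hcr⟩
      have : c = y⁻¹ * g := by rw [← hc]; group
      rw [this] at hcr
      exact hcr hreg
    · have hreg' : ¬ p ∣ orderOf (⟨y⁻¹ * g, hmem⟩ : Subgroup.centralizer ({y} : Set G)) := by
        rwa [Subgroup.orderOf_mk]
      rw [if_pos hreg', if_pos (show IsPPart p g y from ⟨y⁻¹ * g, by group, hcomm, hy, hreg⟩)]
      congr 1
      show g = y * (y⁻¹ * g)
      group
  · rw [extendByZero_apply_of_not_mem _ _ hmem, if_neg]
    rintro ⟨c, hc, hcomm, _, _⟩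
    apply hmem
    have : c = y⁻¹ * g := by rw [← hc]; group
    rw [← this, Subgroup.mem_centralizer_iff]
    intro z hz
    rw [Set.mem_singleton_iff] at hz
    subst hz
    exact hcomm

theorem dvd_orderOf_mul {p : ℕ} (hp : p.Prime) {y c : G} (hy1 : y ≠ 1)
    (hy : ∃ k : ℕ, orderOf y = p ^ k) (hcomm : Commute y c) (hc : ¬ p ∣ orderOf c) :
    p ∣ orderOf (y * c) := by
  obtain ⟨k, hk⟩ := hy
  have hk0 : k ≠ 0 := by
    rintro rfl
    rw [pow_zero, orderOf_eq_one_iff] at hk
    exact hy1 hk
  have hcop : (orderOf y).Coprime (orderOf c) := by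
    rw [hk]
    exact Nat.Coprime.pow_left k ((Nat.Prime.coprime_iff_not_dvd hp).mpr hc)
  rw [hcomm.orderOf_mul_eq_mul_orderOf_of_coprime hcop, hk]
  exact Dvd.dvd.mul_right (dvd_pow_self p hk0) _

open Classical in
/-- The section identity: the squared norms of the `y`-sections of the members of a union of
blocks `U` add up to the sum of `⟨ψ°, ψ⟩` over the `ψ ∈ Irr(C(y))` whose block induces a block
inside `U`. -/
theorem sec_identity [Fintype G] [Fintype (IrrCharacter G)] (p : ℕ) [Fact p.Prime]
    (M : Ideal AlgInt) (hM : IsPModular p M) (U : Set (IrrCharacter G)) (hU : Closed M U) (y : G)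
    (hy : ∃ k : ℕ, orderOf y = p ^ k)
    [Fintype (Subgroup.centralizer ({y} : Set G))]
    [Fintype (IrrCharacter (Subgroup.centralizer ({y} : Set G)))] :
    ∑ χ : IrrCharacter G, (if χ ∈ U then
        classInner (secRes p y (χ : G → ℂ)) (secRes p y (χ : G → ℂ)) else 0) =
      ∑ ψ : IrrCharacter (Subgroup.centralizer ({y} : Set G)),
        if (∃ χ ∈ U, IsInducedBlock M (Subgroup.centralizer ({y} : Set G))
          (blockOf M (ψ : Subgroup.centralizer ({y} : Set G) → ℂ)) (blockOf M (χ : G → ℂ))) then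
          classInner (pRegularPart p (ψ : Subgroup.centralizer ({y} : Set G) → ℂ))
            (ψ : Subgroup.centralizer ({y} : Set G) → ℂ) else 0 := by
  have hMp := isPrime_of_isPModular hM
  have hp : p.Prime := Fact.out
  have hpar : ∀ χ : IrrCharacter G,
      classInner (secRes p y (χ : G → ℂ)) (secRes p y (χ : G → ℂ)) =
        ∑ ψ : IrrCharacter (Subgroup.centralizer ({y} : Set G)),
          classInner (secRes p y (χ : G → ℂ)) (ψ : Subgroup.centralizer ({y} : Set G) → ℂ) *
            conj (classInner (secRes p y (χ : G → ℂ))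
              (ψ : Subgroup.centralizer ({y} : Set G) → ℂ)) :=
    fun χ => classInner_eq_sum _ _
      (isClassFunction_secRes p y (Cfsg.Agent.Lib.CT.Orth.irr_isClassFunction χ))
  have hzero : ∀ (χ : IrrCharacter G)
      (ψ : IrrCharacter (Subgroup.centralizer ({y} : Set G))),
      (if χ ∈ U then
        classInner (secRes p y (χ : G → ℂ)) (ψ : Subgroup.centralizer ({y} : Set G) → ℂ) *
          conj (classInner (secRes p y (χ : G → ℂ))
            (ψ : Subgroup.centralizer ({y} : Set G) → ℂ)) else 0) =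
      (if (∃ χ ∈ U, IsInducedBlock M (Subgroup.centralizer ({y} : Set G))
          (blockOf M (ψ : Subgroup.centralizer ({y} : Set G) → ℂ)) (blockOf M (χ : G → ℂ))) then
        classInner (secRes p y (χ : G → ℂ)) (ψ : Subgroup.centralizer ({y} : Set G) → ℂ) *
          conj (classInner (secRes p y (χ : G → ℂ))
            (ψ : Subgroup.centralizer ({y} : Set G) → ℂ)) else 0) := by
    intro χ ψ
    by_cases hχ : χ ∈ U
    · by_cases hψ : ∃ χ ∈ U, IsInducedBlock M (Subgroup.centralizer ({y} : Set G))
          (blockOf M (ψ : Subgroup.centralizer ({y} : Set G) → ℂ)) (blockOf M (χ : G → ℂ))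
      · rw [if_pos hχ, if_pos hψ]
      · rw [if_pos hχ, if_neg hψ,
          classInner_secRes_eq_zero p M hM y hy (blockOf M (χ : G → ℂ)) (isPBlock_blockOf χ) χ
            (self_mem_blockOf hMp χ) ψ (fun h => hψ ⟨χ, hχ, h⟩), zero_mul]
    · by_cases hψ : ∃ χ ∈ U, IsInducedBlock M (Subgroup.centralizer ({y} : Set G))
          (blockOf M (ψ : Subgroup.centralizer ({y} : Set G) → ℂ)) (blockOf M (χ : G → ℂ))
      · rw [if_neg hχ, if_pos hψ]
        obtain ⟨χ₁, hχ₁, hind₁⟩ := hψ
        have h0 : classInner (secRes p y (χ : G → ℂ))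
            (ψ : Subgroup.centralizer ({y} : Set G) → ℂ) = 0 := by
          apply classInner_secRes_eq_zero p M hM y hy (blockOf M (χ : G → ℂ))
            (isPBlock_blockOf χ) χ (self_mem_blockOf hMp χ) ψ
          intro hind
          apply hχ
          have hBeq := induced_unique hMp _ _ _ _ hind₁ hind
          apply hU χ₁ hχ₁
          rw [hBeq]
          exact self_mem_blockOf hMp χ
        rw [h0, zero_mul]
      · rw [if_neg hχ, if_neg hψ]
  calc ∑ χ : IrrCharacter G, (if χ ∈ U then
        classInner (secRes p y (χ : G → ℂ)) (secRes p y (χ : G → ℂ)) else 0)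
      = ∑ χ : IrrCharacter G, ∑ ψ : IrrCharacter (Subgroup.centralizer ({y} : Set G)),
        (if χ ∈ U then
        classInner (secRes p y (χ : G → ℂ)) (ψ : Subgroup.centralizer ({y} : Set G) → ℂ) *
          conj (classInner (secRes p y (χ : G → ℂ))
            (ψ : Subgroup.centralizer ({y} : Set G) → ℂ)) else 0) := by
        refine Finset.sum_congr rfl fun χ _ => ?_
        by_cases hχ : χ ∈ U
        · simp only [if_pos hχ]
          exact hpar χ
        · simp only [if_neg hχ, Finset.sum_const_zero]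
    _ = ∑ χ : IrrCharacter G, ∑ ψ : IrrCharacter (Subgroup.centralizer ({y} : Set G)),
        (if (∃ χ ∈ U, IsInducedBlock M (Subgroup.centralizer ({y} : Set G))
          (blockOf M (ψ : Subgroup.centralizer ({y} : Set G) → ℂ)) (blockOf M (χ : G → ℂ))) then
        classInner (secRes p y (χ : G → ℂ)) (ψ : Subgroup.centralizer ({y} : Set G) → ℂ) *
          conj (classInner (secRes p y (χ : G → ℂ))
            (ψ : Subgroup.centralizer ({y} : Set G) → ℂ)) else 0) :=
        Finset.sum_congr rfl fun χ _ => Finset.sum_congr rfl fun ψ _ => hzero χ ψ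
    _ = ∑ ψ : IrrCharacter (Subgroup.centralizer ({y} : Set G)), ∑ χ : IrrCharacter G,
        (if (∃ χ ∈ U, IsInducedBlock M (Subgroup.centralizer ({y} : Set G))
          (blockOf M (ψ : Subgroup.centralizer ({y} : Set G) → ℂ)) (blockOf M (χ : G → ℂ))) then
        classInner (secRes p y (χ : G → ℂ)) (ψ : Subgroup.centralizer ({y} : Set G) → ℂ) *
          conj (classInner (secRes p y (χ : G → ℂ))
            (ψ : Subgroup.centralizer ({y} : Set G) → ℂ)) else 0) := Finset.sum_comm
    _ = _ := by
        refine Finset.sum_congr rfl fun ψ _ => ?_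
        by_cases hψ : ∃ χ ∈ U, IsInducedBlock M (Subgroup.centralizer ({y} : Set G))
            (blockOf M (ψ : Subgroup.centralizer ({y} : Set G) → ℂ)) (blockOf M (χ : G → ℂ))
        · simp only [if_pos hψ]
          exact sum_sq_classInner_secRes hp hy ψ
        · simp only [if_neg hψ, Finset.sum_const_zero]

/-- The sum of `⟨ψ°, ψ⟩` over the irreducible characters `ψ` of the subgroup `H` whose block
induces a block inside `U`. -/
noncomputable def locSum [Finite G] (p : ℕ) (M : Ideal AlgInt) (U : Set (IrrCharacter G))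
    (H : Subgroup G) : ℂ :=
  letI : Fintype H := Fintype.ofFinite _
  ∑ᶠ ψ ∈ {ψ : IrrCharacter H | ∃ χ ∈ U, IsInducedBlock M H (blockOf M (ψ : H → ℂ))
      (blockOf M (χ : G → ℂ))},
    classInner (pRegularPart p (ψ : H → ℂ)) (ψ : H → ℂ)

theorem locSum_eq [Finite G] (p : ℕ) (M : Ideal AlgInt) (U : Set (IrrCharacter G))
    (H : Subgroup G) [Fintype H] [Fintype (IrrCharacter H)]
    [DecidablePred fun ψ : IrrCharacter H => ∃ χ ∈ U, IsInducedBlock M H (blockOf M (ψ : H → ℂ))
      (blockOf M (χ : G → ℂ))] :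
    locSum p M U H = ∑ ψ : IrrCharacter H,
      if (∃ χ ∈ U, IsInducedBlock M H (blockOf M (ψ : H → ℂ)) (blockOf M (χ : G → ℂ))) then
        classInner (pRegularPart p (ψ : H → ℂ)) (ψ : H → ℂ) else 0 := by
  unfold locSum
  rw [finsum_mem_def, finsum_eq_sum_of_fintype]
  refine Finset.sum_congr rfl fun ψ _ => ?_
  rw [Set.indicator_apply]
  simp only [Set.mem_ofPred_eq]
  congr 1
  · congr 1
    apply Subsingleton.elim

/-- **Counting `k - l` over all non-identity `p`-elements**, for a union of blocks. -/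
theorem count [Finite G] (p : ℕ) [Fact p.Prime] (M : Ideal AlgInt) (hM : IsPModular p M)
    (U : Set (IrrCharacter G)) (hU : Closed M U) :
    (Nat.card G : ℂ) * ((Nat.card U : ℂ) - (blockRank p U : ℂ)) =
      ∑ᶠ y ∈ {y : G | y ≠ 1 ∧ ∃ k : ℕ, orderOf y = p ^ k},
        (Nat.card (Subgroup.centralizer ({y} : Set G)) : ℂ) *
          locSum p M U (Subgroup.centralizer ({y} : Set G)) := by
  classical
  have hp : p.Prime := Fact.out
  have hMp := isPrime_of_isPModular hM
  let _ : Fintype G := Fintype.ofFinite G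
  have := finite_irrCharacter G
  let _ : Fintype (IrrCharacter G) := Fintype.ofFinite (IrrCharacter G)
  let _ : ∀ y : G, Fintype (Subgroup.centralizer ({y} : Set G)) := fun y => Fintype.ofFinite _
  have : ∀ y : G, Finite (IrrCharacter (Subgroup.centralizer ({y} : Set G))) :=
    fun y => finite_irrCharacter _
  let _ : ∀ y : G, Fintype (IrrCharacter (Subgroup.centralizer ({y} : Set G))) :=
    fun y => Fintype.ofFinite _
  have hne : (Nat.card G : ℂ) ≠ 0 := Nat.cast_ne_zero.mpr Nat.card_pos.ne'
  have hneC : ∀ y : G, (Nat.card (Subgroup.centralizer ({y} : Set G)) : ℂ) ≠ 0 :=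
    fun y => Nat.cast_ne_zero.mpr Nat.card_pos.ne'
  have hk : (Nat.card G : ℂ) * (Nat.card U : ℂ) =
      ∑ χ : IrrCharacter G,
        if χ ∈ U then ∑ g : G, (χ : G → ℂ) g * conj ((χ : G → ℂ) g) else 0 := by
    have hc : ∀ χ : IrrCharacter G,
        ∑ g : G, (χ : G → ℂ) g * conj ((χ : G → ℂ) g) = (Nat.card G : ℂ) := by
      intro χ
      have h := irr_orthonormal χ χ
      rw [if_pos rfl] at h
      unfold classInner at h
      calc ∑ g : G, (χ : G → ℂ) g * conj ((χ : G → ℂ) g)
          = (Nat.card G : ℂ) * ((Nat.card G : ℂ)⁻¹ *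
              ∑ g : G, (χ : G → ℂ) g * conj ((χ : G → ℂ) g)) := by
            rw [← mul_assoc, mul_inv_cancel₀ hne, one_mul]
        _ = (Nat.card G : ℂ) := by rw [h, mul_one]
    simp only [hc]
    rw [← Finset.sum_filter, Finset.sum_const, nsmul_eq_mul, mul_comm]
    congr 1
    rw [Nat.card_eq_fintype_card, Fintype.card_subtype]
  have hl : (Nat.card G : ℂ) * (blockRank p U : ℂ) =
      ∑ χ : IrrCharacter G, if χ ∈ U then
        ∑ g : G, pRegularPart p (χ : G → ℂ) g * conj ((χ : G → ℂ) g) else 0 := by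
    rw [card_mul_rank p U (closed_span p M hM U hU)]
    have h1 : ∀ x : G, (∑ᶠ χ ∈ U, pRegularPart p (χ : G → ℂ) x * (χ : G → ℂ) x⁻¹) =
        ∑ ψ : IrrCharacter G, if ψ ∈ U then
          pRegularPart p (ψ : G → ℂ) x * conj ((ψ : G → ℂ) x) else 0 := by
      intro x
      rw [finsum_mem_def, finsum_eq_sum_of_fintype]
      refine Finset.sum_congr rfl fun ψ _ => ?_
      by_cases hψ : ψ ∈ U
      · rw [if_pos hψ, Set.indicator_of_mem hψ, char_apply_inv (isCharacter_of_irr ψ.2)]
      · rw [if_neg hψ, Set.indicator_of_notMem hψ]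
    rw [Finset.sum_congr rfl (fun x _ => h1 x), Finset.sum_comm]
    refine Finset.sum_congr rfl fun ψ _ => ?_
    by_cases hψ : ψ ∈ U
    · simp only [if_pos hψ]
    · simp only [if_neg hψ, Finset.sum_const_zero]
  have hdiff : (Nat.card G : ℂ) * ((Nat.card U : ℂ) - (blockRank p U : ℂ)) =
      ∑ χ : IrrCharacter G, if χ ∈ U then
        ∑ g : G, (if p ∣ orderOf g then (χ : G → ℂ) g * conj ((χ : G → ℂ) g) else 0) else 0 := by
    rw [mul_sub, hk, hl, ← Finset.sum_sub_distrib]
    refine Finset.sum_congr rfl fun χ _ => ?_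
    by_cases hχ : χ ∈ U
    · simp only [if_pos hχ]
      rw [← Finset.sum_sub_distrib]
      refine Finset.sum_congr rfl fun g _ => ?_
      by_cases hg : p ∣ orderOf g
      · rw [if_pos hg, pRegularPart_of_singular p _ hg, zero_mul, sub_zero]
      · rw [if_neg hg, pRegularPart_of_regular p _ hg, sub_self]
    · simp only [if_neg hχ, sub_zero]
  have hsec : ∀ χ : IrrCharacter G,
      ∑ g : G, (if p ∣ orderOf g then (χ : G → ℂ) g * conj ((χ : G → ℂ) g) else 0) =
      ∑ y : G, if (y ≠ 1 ∧ ∃ k : ℕ, orderOf y = p ^ k) then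
        (Nat.card (Subgroup.centralizer ({y} : Set G)) : ℂ) *
          classInner (secRes p y (χ : G → ℂ)) (secRes p y (χ : G → ℂ)) else 0 := by
    intro χ
    rw [sum_sections hp]
    refine Finset.sum_congr rfl fun y _ => ?_
    by_cases hy : ∃ k : ℕ, orderOf y = p ^ k
    · rw [sum_isPPart p y hy]
      by_cases hy1 : y = 1
      · rw [if_neg (fun h => h.1 hy1)]
        apply Finset.sum_eq_zero
        intro c _
        by_cases hc : p ∣ orderOf c
        · rw [if_neg (not_not.mpr hc)]
        · rw [if_pos hc, if_neg]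
          have e : y * (c : G) = (c : G) :=
            (congrArg (fun z => z * (c : G)) hy1).trans (one_mul _)
          rw [e, Subgroup.orderOf_coe]
          exact hc
      · rw [if_pos ⟨hy1, hy⟩]
        unfold classInner
        rw [← mul_assoc, mul_inv_cancel₀ (hneC y), one_mul]
        refine Finset.sum_congr rfl fun c _ => ?_
        by_cases hc : p ∣ orderOf c
        · rw [if_neg (not_not.mpr hc), secRes_of_singular p y _ hc, zero_mul]
        · rw [if_pos hc, secRes_of_regular p y _ hc, if_pos]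
          exact dvd_orderOf_mul hp hy1 hy (commute_of_mem_centralizer c.2)
            (by rwa [Subgroup.orderOf_coe])
    · rw [if_neg (fun h => hy h.2)]
      apply Finset.sum_eq_zero
      intro g _
      rw [if_neg]
      rintro ⟨c, _, _, hyk, _⟩
      exact hy hyk
  rw [hdiff]
  have hstep : ∀ χ : IrrCharacter G, (if χ ∈ U then
        ∑ g : G, (if p ∣ orderOf g then (χ : G → ℂ) g * conj ((χ : G → ℂ) g) else 0) else 0) =
      ∑ y : G, if (y ≠ 1 ∧ ∃ k : ℕ, orderOf y = p ^ k) then
        (Nat.card (Subgroup.centralizer ({y} : Set G)) : ℂ) *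
          (if χ ∈ U then
            classInner (secRes p y (χ : G → ℂ)) (secRes p y (χ : G → ℂ)) else 0) else 0 := by
    intro χ
    by_cases hχ : χ ∈ U
    · simp only [if_pos hχ]
      exact hsec χ
    · simp only [if_neg hχ, mul_zero, ite_self, Finset.sum_const_zero]
  rw [Finset.sum_congr rfl (fun χ _ => hstep χ), Finset.sum_comm, finsum_mem_def,
    finsum_eq_sum_of_fintype]
  refine Finset.sum_congr rfl fun y _ => ?_
  rw [Set.indicator_apply]
  by_cases hy : y ≠ 1 ∧ ∃ k : ℕ, orderOf y = p ^ k
  · rw [if_pos (show y ∈ {y : G | y ≠ 1 ∧ ∃ k : ℕ, orderOf y = p ^ k} from hy)]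
    simp only [if_pos hy]
    rw [← Finset.mul_sum, sec_identity p M hM U hU y hy.2, locSum_eq]
  · rw [if_neg (show ¬ y ∈ {y : G | y ≠ 1 ∧ ∃ k : ℕ, orderOf y = p ^ k} from hy)]
    simp only [if_neg hy, Finset.sum_const_zero]

end Cfsg.Agent.Lib.CT.KR1
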