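import Mathlib

/-!
# Normal chains of `p`-subgroups stabilized by a `p`-element: a sign-reversing involution

For a non-identity `p`-element `y` of a finite group, `tau y` is an involution on the set of
(possibly empty) chains of nontrivial `p`-subgroups, each normal in the largest, that are
normalized by `y`.  It changes the length by one and preserves `N_G(s) ∩ C_G(y)`.
-/

set_option autoImplicit false

namespace Cfsg.Agent.Lib.CT.KR3

variable {G : Type*} [Group G]

/-- Chains (possibly empty) of nontrivial `p`-subgroups, every member normal in the largest. -/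
def Good (p : ℕ) (s : Finset (Subgroup G)) : Prop :=
  (∀ Q ∈ s, ∀ R ∈ s, Q ≤ R ∨ R ≤ Q) ∧ (∀ Q ∈ s, Q ≠ ⊥ ∧ IsPGroup p Q) ∧
    (s.Nonempty → ∃ T ∈ s, ∀ Q ∈ s, Q ≤ T ∧ T ≤ Subgroup.normalizer ((Q : Subgroup G) : Set G))

/-- The stabilizer of a chain. -/
def nrm (s : Finset (Subgroup G)) : Subgroup G :=
  ⨅ Q ∈ s, Subgroup.normalizer ((Q : Subgroup G) : Set G)

theorem mem_nrm {s : Finset (Subgroup G)} {g : G} :
    g ∈ nrm s ↔ ∀ Q ∈ s, g ∈ Subgroup.normalizer ((Q : Subgroup G) : Set G) := by
  simp [nrm, Subgroup.mem_iInf]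

/-- The join of the members of the chain. -/
noncomputable def top (s : Finset (Subgroup G)) : Subgroup G := s.sup id

open Classical in
/-- The join of the members of the chain not containing `y`. -/
noncomputable def low (y : G) (s : Finset (Subgroup G)) : Subgroup G :=
  (s.filter (fun Q => y ∉ Q)).sup id

/-- The subgroup generated by the `T`-conjugates of `y`. -/
def ycl (y : G) (T : Subgroup G) : Subgroup G :=
  Subgroup.closure {g | ∃ t ∈ T, g = t * y * t⁻¹}

/-- The pivot. -/
noncomputable def piv (y : G) (s : Finset (Subgroup G)) : Subgroup G :=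
  low y s ⊔ ycl y (top s)

open Classical in
/-- The involution. -/
noncomputable def tau (y : G) (s : Finset (Subgroup G)) : Finset (Subgroup G) :=
  if piv y s ∈ s then s.erase (piv y s) else insert (piv y s) s

theorem chain_max (A : Finset (Subgroup G)) (hA : A.Nonempty)
    (hch : ∀ Q ∈ A, ∀ R ∈ A, Q ≤ R ∨ R ≤ Q) : ∃ m ∈ A, ∀ Q ∈ A, Q ≤ m := by
  obtain ⟨m, hm, hmax⟩ := A.exists_maximal hA
  refine ⟨m, hm, fun Q hQ => ?_⟩
  rcases hch Q hQ m hm with h | h
  · exact h
  · exact hmax hQ h

theorem good_subset {p : ℕ} {s s' : Finset (Subgroup G)} (hs : Good p s) (hsub : s' ⊆ s) :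
    Good p s' := by
  refine ⟨fun Q hQ R hR => hs.1 Q (hsub hQ) R (hsub hR), fun Q hQ => hs.2.1 Q (hsub hQ), ?_⟩
  intro hne
  obtain ⟨m, hm, hmax⟩ := chain_max s' hne (fun Q hQ R hR => hs.1 Q (hsub hQ) R (hsub hR))
  obtain ⟨T, hT, hTp⟩ := hs.2.2 ⟨m, hsub hm⟩
  exact ⟨m, hm, fun Q hQ => ⟨hmax Q hQ, ((hTp m (hsub hm)).1).trans (hTp Q (hsub hQ)).2⟩⟩

theorem top_spec {p : ℕ} {s : Finset (Subgroup G)} (hs : Good p s) :
    (top s = ⊥ ∨ top s ∈ s) ∧ (∀ Q ∈ s, Q ≤ top s ∧
      top s ≤ Subgroup.normalizer ((Q : Subgroup G) : Set G)) := by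
  by_cases hne : s.Nonempty
  · obtain ⟨T, hT, hTp⟩ := hs.2.2 hne
    have htop : top s = T := by
      apply le_antisymm
      · exact Finset.sup_le (fun Q hQ => (hTp Q hQ).1)
      · exact Finset.le_sup (f := id) hT
    rw [htop]
    exact ⟨Or.inr hT, hTp⟩
  · rw [Finset.not_nonempty_iff_eq_empty] at hne
    subst hne
    refine ⟨Or.inl ?_, fun Q hQ => absurd hQ (Finset.notMem_empty Q)⟩
    simp [top]

open Classical in
theorem low_spec {p : ℕ} {s : Finset (Subgroup G)} (hs : Good p s) (y : G) :
    (low y s = ⊥ ∨ (low y s ∈ s ∧ y ∉ low y s)) ∧ (∀ Q ∈ s, y ∉ Q → Q ≤ low y s) := by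
  constructor
  · by_cases hne : (s.filter (fun Q => y ∉ Q)).Nonempty
    · obtain ⟨m, hm, hmax⟩ := chain_max _ hne (fun Q hQ R hR =>
        hs.1 Q (Finset.mem_filter.mp hQ).1 R (Finset.mem_filter.mp hR).1)
      have hlow : low y s = m := by
        apply le_antisymm
        · exact Finset.sup_le (fun Q hQ => hmax Q hQ)
        · exact Finset.le_sup (f := id) hm
      rw [hlow]
      exact Or.inr ⟨(Finset.mem_filter.mp hm).1, (Finset.mem_filter.mp hm).2⟩
    · rw [Finset.not_nonempty_iff_eq_empty] at hne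
      left
      simp [low, hne]
  · intro Q hQ hyQ
    exact Finset.le_sup (f := id) (Finset.mem_filter.mpr ⟨hQ, hyQ⟩)

theorem mem_ycl (y : G) (T : Subgroup G) : y ∈ ycl y T :=
  Subgroup.subset_closure ⟨1, T.one_mem, by group⟩

theorem ycl_mono (y : G) {T T' : Subgroup G} (h : T ≤ T') : ycl y T ≤ ycl y T' := by
  apply Subgroup.closure_mono
  rintro g ⟨t, ht, rfl⟩
  exact ⟨t, h ht, rfl⟩

theorem ycl_le (y : G) {T K : Subgroup G} (hT : T ≤ K) (hy : y ∈ K) : ycl y T ≤ K := by
  unfold ycl
  rw [Subgroup.closure_le]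
  rintro g ⟨t, ht, rfl⟩
  exact K.mul_mem (K.mul_mem (hT ht) hy) (K.inv_mem (hT ht))

theorem normalizer_sup {A B : Subgroup G} {g : G}
    (hA : g ∈ Subgroup.normalizer ((A : Subgroup G) : Set G))
    (hB : g ∈ Subgroup.normalizer ((B : Subgroup G) : Set G)) :
    g ∈ Subgroup.normalizer ((A ⊔ B : Subgroup G) : Set G) := by
  rw [Subgroup.mem_normalizer_iff_map_conj_eq] at hA hB ⊢
  rw [Subgroup.map_sup, hA, hB]

theorem normalizer_bot : Subgroup.normalizer (((⊥ : Subgroup G) : Subgroup G) : Set G) = ⊤ :=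
  Subgroup.normalizer_eq_top (⊥ : Subgroup G)

/-- Elements normalizing `T` and centralizing `y` normalize `ycl y T`. -/
theorem inf_le_normalizer_ycl (y : G) (T : Subgroup G) :
    Subgroup.normalizer ((T : Subgroup G) : Set G) ⊓ Subgroup.centralizer ({y} : Set G) ≤
      Subgroup.normalizer ((ycl y T : Subgroup G) : Set G) := by
  unfold ycl
  rw [Subgroup.le_normalizer_closure_iff]
  rintro h ⟨hT, hc⟩ g ⟨t, ht, rfl⟩
  have hcy : y * h = h * y := (Subgroup.mem_centralizer_iff.mp hc) y (Set.mem_singleton y)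
  have e : h * y * h⁻¹ = y := by rw [← hcy, mul_inv_cancel_right]
  apply Subgroup.subset_closure
  refine ⟨h * t * h⁻¹, (Subgroup.mem_normalizer_iff.mp hT t).mp ht, ?_⟩
  calc h * (t * y * t⁻¹) * h⁻¹ = (h * t * h⁻¹) * (h * y * h⁻¹) * (h * t * h⁻¹)⁻¹ := by group
    _ = (h * t * h⁻¹) * y * (h * t * h⁻¹)⁻¹ := by rw [e]

theorem le_normalizer_ycl (y : G) (T : Subgroup G) :
    T ≤ Subgroup.normalizer ((ycl y T : Subgroup G) : Set G) := by
  unfold ycl
  rw [Subgroup.le_normalizer_closure_iff]
  rintro u hu g ⟨t, ht, rfl⟩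
  apply Subgroup.subset_closure
  exact ⟨u * t, T.mul_mem hu ht, by group⟩

/-- A `p`-group generated by a normal subgroup `L` and the conjugates of `y` is generated by
`L` and `y`. -/
theorem pg_lemma [Finite G] (p : ℕ) [Fact p.Prime] (T L : Subgroup G) (hT : IsPGroup p T)
    (hLT : L ≤ T) (y : G) (hyT : y ∈ T) (h : T = L ⊔ ycl y T) :
    T = L ⊔ Subgroup.zpowers y := by
  by_contra hne
  have hS : L ⊔ Subgroup.zpowers y ≤ T :=
    sup_le hLT (by rw [Subgroup.zpowers_le]; exact hyT)
  have hS'top : (L ⊔ Subgroup.zpowers y).subgroupOf T ≠ ⊤ := by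
    intro htop
    exact hne (le_antisymm (Subgroup.subgroupOf_eq_top.mp htop) hS)
  have hnil : Group.IsNilpotent T := hT.isNilpotent
  have hnc := Group.normalizerCondition_of_isNilpotent (G := T)
  obtain ⟨Mx, hMx, hle⟩ :=
    (eq_top_or_exists_le_coatom ((L ⊔ Subgroup.zpowers y).subgroupOf T)).resolve_left hS'top
  have hMn : Mx.Normal := Subgroup.NormalizerCondition.normal_of_coatom Mx hnc hMx
  have hy' : (⟨y, hyT⟩ : T) ∈ Mx :=
    hle (Subgroup.mem_subgroupOf.mpr (Subgroup.mem_sup_right (Subgroup.mem_zpowers y)))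
  have hL' : ∀ l (hl : l ∈ L), (⟨l, hLT hl⟩ : T) ∈ Mx :=
    fun l hl => hle (Subgroup.mem_subgroupOf.mpr (Subgroup.mem_sup_left hl))
  have hTle : T ≤ Mx.map T.subtype := by
    apply (le_of_eq h).trans
    apply sup_le
    · intro l hl
      exact ⟨⟨l, hLT hl⟩, hL' l hl, rfl⟩
    · unfold ycl
      rw [Subgroup.closure_le]
      rintro g ⟨t, ht, rfl⟩
      exact ⟨(⟨t, ht⟩ : T) * ⟨y, hyT⟩ * (⟨t, ht⟩ : T)⁻¹, hMn.conj_mem _ hy' _, rfl⟩
  apply hMx.1
  rw [eq_top_iff]
  intro x _
  obtain ⟨x', hx', hxx⟩ := hTle x.2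
  have : x' = x := Subtype.ext hxx
  rwa [← this]

section Props

variable {p : ℕ} {y : G} {s : Finset (Subgroup G)}

theorem y_notMem_low (hs : Good p s) (hy1 : y ≠ 1) : y ∉ low y s := by
  rcases (low_spec hs y).1 with h | h
  · rw [h, Subgroup.mem_bot]
    exact hy1
  · exact h.2

theorem low_le_top (hs : Good p s) : low y s ≤ top s := by
  rcases (low_spec hs y).1 with h | h
  · rw [h]; exact bot_le
  · exact ((top_spec hs).2 _ h.1).1

theorem nrm_le_normalizer_low (hs : Good p s) :
    nrm s ≤ Subgroup.normalizer ((low y s : Subgroup G) : Set G) := by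
  rcases (low_spec hs y).1 with h | h
  · rw [h, normalizer_bot]; exact le_top
  · intro g hg
    exact mem_nrm.mp hg _ h.1

theorem nrm_le_normalizer_top (hs : Good p s) :
    nrm s ≤ Subgroup.normalizer ((top s : Subgroup G) : Set G) := by
  rcases (top_spec hs).1 with h | h
  · rw [h, normalizer_bot]; exact le_top
  · intro g hg
    exact mem_nrm.mp hg _ h

theorem top_le_normalizer_low (hs : Good p s) :
    top s ≤ Subgroup.normalizer ((low y s : Subgroup G) : Set G) := by
  rcases (low_spec hs y).1 with h | h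
  · rw [h, normalizer_bot]; exact le_top
  · exact ((top_spec hs).2 _ h.1).2

theorem mem_piv : y ∈ piv y s := Subgroup.mem_sup_right (mem_ycl y (top s))

theorem piv_ne_bot (hy1 : y ≠ 1) : piv y s ≠ ⊥ := by
  intro h
  have := mem_piv (y := y) (s := s)
  rw [h, Subgroup.mem_bot] at this
  exact hy1 this

theorem piv_le_of_mem (hs : Good p s) {Q : Subgroup G} (hQ : Q ∈ s) (hyQ : y ∈ Q) :
    piv y s ≤ Q := by
  apply sup_le
  · rcases (low_spec hs y).1 with h | h
    · rw [h]; exact bot_le
    · rcases hs.1 _ h.1 Q hQ with h' | h'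
      · exact h'
      · exact absurd (h' hyQ) h.2
  · unfold ycl
    rw [Subgroup.closure_le]
    rintro g ⟨t, ht, rfl⟩
    exact (Subgroup.mem_normalizer_iff.mp (((top_spec hs).2 Q hQ).2 ht) y).mp hyQ

theorem le_piv_of_notMem (hs : Good p s) {Q : Subgroup G} (hQ : Q ∈ s) (hyQ : y ∉ Q) :
    Q ≤ piv y s :=
  ((low_spec hs y).2 Q hQ hyQ).trans le_sup_left

theorem inf_le_normalizer_piv (hs : Good p s) :
    nrm s ⊓ Subgroup.centralizer ({y} : Set G) ≤
      Subgroup.normalizer ((piv y s : Subgroup G) : Set G) := by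
  intro g hg
  exact normalizer_sup (nrm_le_normalizer_low hs hg.1)
    (inf_le_normalizer_ycl y (top s) ⟨nrm_le_normalizer_top hs hg.1, hg.2⟩)

theorem y_mem_normalizer_piv (hs : Good p s) (hys : y ∈ nrm s) :
    y ∈ Subgroup.normalizer ((piv y s : Subgroup G) : Set G) :=
  inf_le_normalizer_piv hs ⟨hys, show y ∈ Subgroup.centralizer ({y} : Set G) by
    rw [Subgroup.mem_centralizer_iff]
    intro z hz
    rw [Set.mem_singleton_iff] at hz
    rw [hz]⟩

theorem top_le_normalizer_piv (hs : Good p s) :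
    top s ≤ Subgroup.normalizer ((piv y s : Subgroup G) : Set G) := by
  intro g hg
  exact normalizer_sup (top_le_normalizer_low hs hg) (le_normalizer_ycl y (top s) hg)

theorem piv_le_top (hs : Good p s) (hyT : y ∈ top s) : piv y s ≤ top s :=
  sup_le (low_le_top hs) (ycl_le y le_rfl hyT)

theorem low_eq_top (hs : Good p s) (hyT : y ∉ top s) : low y s = top s := by
  apply le_antisymm (low_le_top hs)
  apply Finset.sup_le
  intro Q hQ
  exact (low_spec hs y).2 Q hQ (fun h => hyT (((top_spec hs).2 Q hQ).1 h))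

theorem piv_le_normalizer (hs : Good p s) (hys : y ∈ nrm s) (hyT : y ∉ top s)
    {Q : Subgroup G} (hQ : Q ∈ s) :
    piv y s ≤ Subgroup.normalizer ((Q : Subgroup G) : Set G) := by
  unfold piv
  rw [low_eq_top hs hyT]
  exact sup_le ((top_spec hs).2 Q hQ).2
    (ycl_le y ((top_spec hs).2 Q hQ).2 (mem_nrm.mp hys Q hQ))

theorem top_isPGroup (hs : Good p s) : IsPGroup p (top s) := by
  rcases (top_spec hs).1 with h | h
  · rw [h]; exact IsPGroup.of_bot
  · exact (hs.2.1 _ h).2

theorem piv_isPGroup (hs : Good p s) (hyp : ∃ k : ℕ, orderOf y = p ^ k) (hys : y ∈ nrm s) :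
    IsPGroup p (piv y s) := by
  obtain ⟨k, hk⟩ := hyp
  have hz : IsPGroup p (Subgroup.zpowers y) :=
    IsPGroup.of_card (n := k) (by rw [Nat.card_zpowers, hk])
  have hzn : Subgroup.zpowers y ≤ Subgroup.normalizer ((top s : Subgroup G) : Set G) := by
    rw [Subgroup.zpowers_le]
    exact nrm_le_normalizer_top hs hys
  have hsup : IsPGroup p (top s ⊔ Subgroup.zpowers y : Subgroup G) :=
    IsPGroup.to_sup_of_normal_left' (top_isPGroup hs) hz hzn
  refine hsup.to_le (sup_le ((low_le_top hs).trans le_sup_left) ?_)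
  exact ycl_le y le_sup_left (Subgroup.mem_sup_right (Subgroup.mem_zpowers y))

end Props

theorem centralizer_le_normalizer_zpowers (y : G) :
    Subgroup.centralizer ({y} : Set G) ≤
      Subgroup.normalizer ((Subgroup.zpowers y : Subgroup G) : Set G) := by
  rw [Subgroup.zpowers_eq_closure, Subgroup.le_normalizer_closure_iff]
  intro h hh z hz
  rw [Set.mem_singleton_iff] at hz
  subst hz
  have : z * h = h * z := Subgroup.mem_centralizer_iff.mp hh z rfl
  rw [← this, mul_inv_cancel_right]
  exact Subgroup.subset_closure rfl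

section Tau

variable {p : ℕ} {y : G} {s : Finset (Subgroup G)}

open Classical in
theorem tau_of_mem (h : piv y s ∈ s) : tau y s = s.erase (piv y s) := by
  unfold tau
  rw [if_pos h]

open Classical in
theorem tau_of_notMem (h : piv y s ∉ s) : tau y s = insert (piv y s) s := by
  unfold tau
  rw [if_neg h]

open Classical in
theorem good_tau (hs : Good p s) (hy1 : y ≠ 1) (hyp : ∃ k : ℕ, orderOf y = p ^ k)
    (hys : y ∈ nrm s) : Good p (tau y s) := by
  by_cases hR : piv y s ∈ s
  · rw [tau_of_mem hR]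
    exact good_subset hs (Finset.erase_subset _ _)
  · rw [tau_of_notMem hR]
    refine ⟨?_, ?_, ?_⟩
    · have hcmp : ∀ Q ∈ s, piv y s ≤ Q ∨ Q ≤ piv y s := fun Q hQ => by
        by_cases hyQ : y ∈ Q
        · exact Or.inl (piv_le_of_mem hs hQ hyQ)
        · exact Or.inr (le_piv_of_notMem hs hQ hyQ)
      intro Q hQ R hR'
      rw [Finset.mem_insert] at hQ hR'
      rcases hQ with rfl | hQ
      · rcases hR' with rfl | hR'
        · exact Or.inl le_rfl
        · exact hcmp R hR'
      · rcases hR' with rfl | hR'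
        · exact (hcmp Q hQ).symm
        · exact hs.1 Q hQ R hR'
    · intro Q hQ
      rw [Finset.mem_insert] at hQ
      rcases hQ with rfl | hQ
      · exact ⟨piv_ne_bot hy1, piv_isPGroup hs hyp hys⟩
      · exact hs.2.1 Q hQ
    · intro _
      by_cases hyT : y ∈ top s
      · have hTs : top s ∈ s := by
          rcases (top_spec hs).1 with h | h
          · rw [h, Subgroup.mem_bot] at hyT
            exact absurd hyT hy1
          · exact h
        refine ⟨top s, Finset.mem_insert_of_mem hTs, ?_⟩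
        intro Q hQ
        rw [Finset.mem_insert] at hQ
        rcases hQ with rfl | hQ
        · exact ⟨piv_le_top hs hyT, top_le_normalizer_piv hs⟩
        · exact (top_spec hs).2 Q hQ
      · refine ⟨piv y s, Finset.mem_insert_self _ _, ?_⟩
        intro Q hQ
        rw [Finset.mem_insert] at hQ
        rcases hQ with rfl | hQ
        · exact ⟨le_rfl, Subgroup.le_normalizer⟩
        · exact ⟨le_piv_of_notMem hs hQ (fun h => hyT (((top_spec hs).2 Q hQ).1 h)),
            piv_le_normalizer hs hys hyT hQ⟩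

open Classical in
theorem mem_nrm_tau (hs : Good p s) (hys : y ∈ nrm s) : y ∈ nrm (tau y s) := by
  rw [mem_nrm]
  intro Q hQ
  by_cases hR : piv y s ∈ s
  · rw [tau_of_mem hR] at hQ
    exact mem_nrm.mp hys Q (Finset.mem_of_mem_erase hQ)
  · rw [tau_of_notMem hR, Finset.mem_insert] at hQ
    rcases hQ with rfl | hQ
    · exact y_mem_normalizer_piv hs hys
    · exact mem_nrm.mp hys Q hQ

/-- When the pivot is the top of the chain, the top is generated by `low` and `y`. -/
theorem top_eq_low_sup_zpowers [Finite G] [Fact p.Prime] (hs : Good p s)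
    (hR : piv y s ∈ s) (hT : top s = piv y s) :
    top s = low y s ⊔ Subgroup.zpowers y := by
  have hyT : y ∈ top s := hT ▸ mem_piv
  have hTs : top s ∈ s := hT ▸ hR
  exact pg_lemma p (top s) (low y s) (hs.2.1 _ hTs).2 (low_le_top hs) y hyT hT

theorem top_mem_of_piv_mem (hs : Good p s) (hy1 : y ≠ 1) (hR : piv y s ∈ s) : top s ∈ s := by
  rcases (top_spec hs).1 with h | h
  · exfalso
    have := ((top_spec hs).2 _ hR).1
    rw [h] at this
    exact piv_ne_bot hy1 (le_bot_iff.mp this)
  · exact h

open Classical in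
theorem nrm_tau_inf [Finite G] [Fact p.Prime] (hs : Good p s) (hy1 : y ≠ 1) :
    nrm (tau y s) ⊓ Subgroup.centralizer ({y} : Set G) =
      nrm s ⊓ Subgroup.centralizer ({y} : Set G) := by
  by_cases hR : piv y s ∈ s
  · rw [tau_of_mem hR]
    apply le_antisymm
    · intro g hg
      refine ⟨mem_nrm.mpr (fun Q hQ => ?_), hg.2⟩
      by_cases hQR : Q = piv y s
      · subst hQR
        have hgn : ∀ Q' ∈ s, Q' ≠ piv y s →
            g ∈ Subgroup.normalizer ((Q' : Subgroup G) : Set G) :=
          fun Q' hQ' hne => mem_nrm.mp hg.1 Q' (Finset.mem_erase.mpr ⟨hne, hQ'⟩)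
        have hlow : g ∈ Subgroup.normalizer ((low y s : Subgroup G) : Set G) := by
          rcases (low_spec hs y).1 with h | h
          · rw [h, normalizer_bot]
            exact Subgroup.mem_top g
          · refine hgn _ h.1 (fun heq => h.2 ?_)
            have hh : low y s = piv y s := heq
            rw [hh]
            exact mem_piv
        by_cases hT : top s = piv y s
        · have hpg := top_eq_low_sup_zpowers hs hR hT
          rw [← hT, hpg]
          exact normalizer_sup hlow (centralizer_le_normalizer_zpowers y hg.2)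
        · exact normalizer_sup hlow (inf_le_normalizer_ycl y (top s)
            ⟨hgn _ (top_mem_of_piv_mem hs hy1 hR) hT, hg.2⟩)
      · exact mem_nrm.mp hg.1 Q (Finset.mem_erase.mpr ⟨hQR, hQ⟩)
    · intro g hg
      refine ⟨mem_nrm.mpr (fun Q hQ => ?_), hg.2⟩
      exact mem_nrm.mp hg.1 Q (Finset.mem_of_mem_erase hQ)
  · rw [tau_of_notMem hR]
    apply le_antisymm
    · intro g hg
      refine ⟨mem_nrm.mpr (fun Q hQ => ?_), hg.2⟩
      exact mem_nrm.mp hg.1 Q (Finset.mem_insert_of_mem hQ)
    · intro g hg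
      refine ⟨mem_nrm.mpr (fun Q hQ => ?_), hg.2⟩
      rw [Finset.mem_insert] at hQ
      rcases hQ with rfl | hQ
      · exact inf_le_normalizer_piv hs hg
      · exact mem_nrm.mp hg.1 Q hQ

open Classical in
theorem low_tau : low y (tau y s) = low y s := by
  unfold low
  by_cases hR : piv y s ∈ s
  · rw [tau_of_mem hR, Finset.filter_erase, Finset.erase_eq_of_notMem]
    intro h
    exact (Finset.mem_filter.mp h).2 mem_piv
  · rw [tau_of_notMem hR, Finset.filter_insert, if_neg (not_not.mpr mem_piv)]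

open Classical in
theorem piv_tau [Finite G] [Fact p.Prime] (hs : Good p s) (hy1 : y ≠ 1) :
    piv y (tau y s) = piv y s := by
  have hdef : ∀ s' : Finset (Subgroup G), piv y s' = low y s' ⊔ ycl y (top s') := fun _ => rfl
  rw [hdef (tau y s), low_tau]
  by_cases hR : piv y s ∈ s
  · have hTs := top_mem_of_piv_mem hs hy1 hR
    by_cases hT : top s = piv y s
    · have htop' : top (tau y s) = low y s := by
        rw [tau_of_mem hR]
        apply le_antisymm
        · apply Finset.sup_le
          intro Q hQ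
          have hQs := Finset.mem_of_mem_erase hQ
          refine (low_spec hs y).2 Q hQs (fun hyQ => (Finset.mem_erase.mp hQ).1 ?_)
          exact le_antisymm (hT ▸ ((top_spec hs).2 Q hQs).1) (piv_le_of_mem hs hQs hyQ)
        · rcases (low_spec hs y).1 with h | h
          · rw [h]; exact bot_le
          · refine Finset.le_sup (f := id) (Finset.mem_erase.mpr ⟨fun heq => h.2 ?_, h.1⟩)
            have hh : low y s = piv y s := heq
            rw [hh]
            exact mem_piv
      rw [htop']
      have hpg := top_eq_low_sup_zpowers hs hR hT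
      apply le_antisymm
      · rw [hdef s]
        exact sup_le le_sup_left ((ycl_mono y (low_le_top hs)).trans le_sup_right)
      · rw [← hT, hpg]
        exact sup_le le_sup_left ((Subgroup.zpowers_le.mpr (mem_ycl y _)).trans le_sup_right)
    · have htop' : top (tau y s) = top s := by
        rw [tau_of_mem hR]
        apply le_antisymm
        · exact Finset.sup_le (fun Q hQ => ((top_spec hs).2 Q (Finset.mem_of_mem_erase hQ)).1)
        · exact Finset.le_sup (f := id) (Finset.mem_erase.mpr ⟨hT, hTs⟩)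
      rw [htop']
      rfl
  · have htop' : top (tau y s) = piv y s ⊔ top s := by
      rw [tau_of_notMem hR]
      unfold top
      rw [Finset.sup_insert]
      rfl
    by_cases hyT : y ∈ top s
    · rw [htop', sup_eq_right.mpr (piv_le_top hs hyT)]
      rfl
    · have hTle : top s ≤ piv y s := by
        rw [hdef s, low_eq_top hs hyT]
        exact le_sup_left
      rw [htop', sup_eq_left.mpr hTle]
      apply le_antisymm
      · exact sup_le le_sup_left (ycl_le y le_rfl mem_piv)
      · rw [hdef s]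
        exact sup_le le_sup_left ((ycl_mono y hTle).trans le_sup_right)

open Classical in
theorem tau_tau [Finite G] [Fact p.Prime] (hs : Good p s) (hy1 : y ≠ 1) :
    tau y (tau y s) = s := by
  have hp := piv_tau (p := p) hs hy1
  by_cases hR : piv y s ∈ s
  · have h1 := tau_of_mem hR
    rw [tau_of_notMem (s := tau y s) (by rw [hp, h1]; exact Finset.notMem_erase _ _), hp, h1,
      Finset.insert_erase hR]
  · have h1 := tau_of_notMem hR
    rw [tau_of_mem (s := tau y s) (by rw [hp, h1]; exact Finset.mem_insert_self _ _), hp, h1,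
      Finset.erase_insert hR]

open Classical in
theorem card_tau : (-1 : ℂ) ^ (tau y s).card = - (-1 : ℂ) ^ s.card := by
  by_cases hR : piv y s ∈ s
  · rw [tau_of_mem hR, Finset.card_erase_of_mem hR]
    obtain ⟨n, hn⟩ : ∃ n, s.card = n + 1 :=
      Nat.exists_eq_succ_of_ne_zero (Finset.card_ne_zero_of_mem hR)
    rw [hn, Nat.add_sub_cancel, pow_succ]
    ring
  · rw [tau_of_notMem hR, Finset.card_insert_of_notMem hR, pow_succ]
    ring

open Classical in
theorem tau_ne : tau y s ≠ s := by
  by_cases hR : piv y s ∈ s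
  · rw [tau_of_mem hR]
    intro h
    have h2 : piv y s ∉ s.erase (piv y s) := Finset.notMem_erase _ _
    rw [h] at h2
    exact h2 hR
  · rw [tau_of_notMem hR]
    intro h
    have h2 : piv y s ∈ insert (piv y s) s := Finset.mem_insert_self _ _
    rw [h] at h2
    exact hR h2

end Tau

end Cfsg.Agent.Lib.CT.KR3
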