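import Mathlib
import Cfsg.Agent.Lib.Helper82.SecHeight2
import Cfsg.Agent.Lib.Helper82.SecRow
import Cfsg.Agent.Lib.Helper15.NormBound
import Cfsg.Agent.Lib.Helper41.MajorDiag
import Cfsg.Agent.Lib.Helper3.PowReps

/-!
# Heights and the number of major subsections

For a block `B` of defect `d`, a character `χ ∈ B` of height `h` and a set `X` of representatives
of the classes of `p`-elements, `height_sum_le` states
`p ^ h * #{major subsections (x, β), x ∈ X} ≤ p ^ d`.
-/

set_option autoImplicit false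

namespace Cfsg.Agent.Lib.CT.MajSum

open Cfsg Cfsg.Agent.Lib.Helper77.LocalRing
  Cfsg.Agent.Lib.Helper75.Section Cfsg.Agent.Lib.Helper75.Section2
  Cfsg.Agent.Lib.Helper75.Section3 Cfsg.Agent.Lib.Helper75.BlockRank
  Cfsg.Agent.Lib.Helper82.SecSq Cfsg.Agent.Lib.Helper82.SecLocal
  Cfsg.Agent.Lib.Helper82.SecHeight Cfsg.Agent.Lib.Helper80.Contrib
  Cfsg.Agent.Lib.Helper15.NormBound Cfsg.Agent.Lib.Helper41.MajorDiag
  Cfsg.Agent.Lib.Helper3.PowReps
open scoped ComplexConjugate
open Finset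

universe u
variable {G : Type u} [Group G]

/-- The centralizer of a power of `y` prime to the order of `y` is the centralizer of `y`. -/
theorem centralizer_pow_eq [Finite G] (y : G) (t : ℕ) (ht : Nat.Coprime t (orderOf y)) :
    Subgroup.centralizer ({y} : Set G) = Subgroup.centralizer ({y ^ t} : Set G) := by
  have hz : Subgroup.zpowers (y ^ t) = Subgroup.zpowers y := by
    apply Subgroup.eq_of_le_of_card_ge
    · rw [Subgroup.zpowers_le]
      exact Subgroup.pow_mem _ (Subgroup.mem_zpowers y) t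
    · rw [Nat.card_zpowers, Nat.card_zpowers, orderOf_pow, Nat.coprime_comm.1 ht, Nat.div_one]
  have key : ∀ u : G, Subgroup.centralizer ({u} : Set G)
      = Subgroup.centralizer (Subgroup.zpowers u : Set G) := by
    intro u
    ext c
    rw [Subgroup.mem_centralizer_iff, Subgroup.mem_centralizer_iff]
    constructor
    · intro h g hg
      obtain ⟨k, rfl⟩ := Subgroup.mem_zpowers_iff.1 hg
      have h1 : Commute u c := h u rfl
      exact (h1.zpow_left k).eq
    · intro h g hg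
      rw [Set.mem_singleton_iff] at hg
      subst hg
      exact h g (Subgroup.mem_zpowers g)
  rw [key y, key (y ^ t), hz]

/-- Transport of a section norm along an equality of subgroups. -/
theorem norm_transport (p : ℕ) (C C' : Subgroup G) (h : C = C') [i1 : Fintype C]
    [i2 : Fintype C'] (f : G → ℂ) :
    classInner (pRegularPart p (fun c : C => f c)) (pRegularPart p (fun c : C => f c)) =
      classInner (pRegularPart p (fun c : C' => f c)) (pRegularPart p (fun c : C' => f c)) := by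
  subst h
  rw [Subsingleton.elim i1 i2]

/-- Shifting a class function by a power of `x` gives a class function on `C_G(x)`. -/
theorem isClassFunction_shift_pow (x : G) (t : ℕ) {f : G → ℂ} (hf : IsClassFunction G f) :
    IsClassFunction (Subgroup.centralizer ({x} : Set G))
      (fun c : Subgroup.centralizer ({x} : Set G) => f (x ^ t * (c : G))) := by
  intro c h
  have hcomm0 : Commute x (h : G) := Subgroup.mem_centralizer_iff.mp h.2 x rfl
  have hcomm : Commute (x ^ t) (h : G) := hcomm0.pow_left t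
  have e : x ^ t * ((h * c * h⁻¹ : Subgroup.centralizer ({x} : Set G)) : G) =
      (h : G) * (x ^ t * (c : G)) * (h : G)⁻¹ := by
    push_cast
    have h1 : x ^ t * (h : G) = (h : G) * x ^ t := hcomm
    calc x ^ t * ((h : G) * (c : G) * (h : G)⁻¹) = (x ^ t * (h : G)) * (c : G) * (h : G)⁻¹ := by
          group
      _ = ((h : G) * x ^ t) * (c : G) * (h : G)⁻¹ := by rw [h1]
      _ = (h : G) * (x ^ t * (c : G)) * (h : G)⁻¹ := by group
  show f (x ^ t * ((h * c * h⁻¹ : Subgroup.centralizer ({x} : Set G)) : G)) = f (x ^ t * (c : G))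
  rw [e]
  exact hf _ _

/-- The contributions of distinct blocks add up to at most the norm of the truncation. -/
theorem sum_mm_le {C : Type u} [Group C] [Fintype C] [Fintype (IrrCharacter C)] (p : ℕ)
    [Fact p.Prime] (M : Ideal AlgInt) (hM : IsPModular p M)
    [∀ β : Set (IrrCharacter C), DecidablePred (· ∈ β)] [DecidableEq (Set (IrrCharacter C))]
    (γ : C → ℂ) (hγ : IsClassFunction C γ)
    (S : Finset (Set (IrrCharacter C))) (hS : ∀ β ∈ S, IsPBlock M β) :
    ∑ β ∈ S, (mm p β γ γ).re ≤ (classInner (pRegularPart p γ) (pRegularPart p γ)).re := by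
  have hMp := isPrime_of_isPModular hM
  obtain ⟨A, hA⟩ : ∃ A : IrrCharacter C → ℂ,
      ∀ ξ, A ξ = classInner (pRegularPart p γ) (ξ : C → ℂ) := ⟨_, fun _ => rfl⟩
  have h1 : ∀ β ∈ S, (mm p β γ γ).re = ∑ ξ : IrrCharacter C,
      if ξ ∈ β then Complex.normSq (A ξ) else 0 := by
    intro β hβ
    rw [← sum_trunc_eq_mm p M hM β (hS β hβ) γ γ hγ hγ, Complex.re_sum, sum_filter]
    refine sum_congr rfl fun ξ _ => ?_
    by_cases hξ : ξ ∈ β
    · rw [if_pos hξ, if_pos hξ, ← hA, Complex.mul_conj, Complex.ofReal_re]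
    · rw [if_neg hξ, if_neg hξ]
  have h2 : (classInner (pRegularPart p γ) (pRegularPart p γ)).re
      = ∑ ξ : IrrCharacter C, Complex.normSq (A ξ) := by
    rw [classInner_eq_sum _ _ (isClassFunction_pRegularPart p hγ), Complex.re_sum]
    refine sum_congr rfl fun ξ _ => ?_
    rw [← hA, Complex.mul_conj, Complex.ofReal_re]
  rw [sum_congr rfl h1, h2, sum_comm]
  refine sum_le_sum fun ξ _ => ?_
  by_cases hex : ∃ β₀ ∈ S, ξ ∈ β₀
  · obtain ⟨β₀, hβ₀, hξ₀⟩ := hex
    have h3 : ∀ β ∈ S, (if ξ ∈ β then Complex.normSq (A ξ) else 0)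
        = if β = β₀ then Complex.normSq (A ξ) else 0 := by
      intro β hβ
      by_cases hξ : ξ ∈ β
      · have hβeq : β = β₀ := by
          rw [Cfsg.Agent.Lib.CT.DefectZeroBlock.eq_blockOf_of_mem hMp (hS β hβ) hξ,
            Cfsg.Agent.Lib.CT.DefectZeroBlock.eq_blockOf_of_mem hMp (hS β₀ hβ₀) hξ₀]
        rw [if_pos hξ, if_pos hβeq]
      · have hne : β ≠ β₀ := fun h => hξ (h ▸ hξ₀)
        rw [if_neg hξ, if_neg hne]
    rw [sum_congr rfl h3, sum_ite_eq' S β₀, if_pos hβ₀]
  · have h3 : ∀ β ∈ S, (if ξ ∈ β then Complex.normSq (A ξ) else 0) = 0 := by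
      intro β hβ
      rw [if_neg (fun h => hex ⟨β, hβ, h⟩)]
    rw [sum_congr rfl h3, sum_const_zero]
    exact Complex.normSq_nonneg _

open Classical in
/-- **Heights and major subsections.**  For `χ ∈ B` of height `h`, `B` of defect `d`, and a set
`X` of representatives of the classes of `p`-elements: `p ^ h` times the number of major
subsections `(x, β)`, `x ∈ X`, is at most `p ^ d`. -/
theorem height_sum_le [Finite G] (p : ℕ) [Fact p.Prime] (M : Ideal AlgInt) (hM : IsPModular p M)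
    (B : Set (IrrCharacter G)) (χ : IrrCharacter G) (hχ : χ ∈ B)
    (X : Finset G) (hX : ∀ x ∈ X, ∃ k : ℕ, orderOf x = p ^ k)
    (hXrep : ∀ g : G, (∃ k : ℕ, orderOf g = p ^ k) → ∃! x, x ∈ X ∧ IsConj g x) :
    p ^ blockHeight p B (χ : G → ℂ) * ∑ x ∈ X,
        Set.ncard {β : Set (IrrCharacter (Subgroup.centralizer ({x} : Set G))) |
          IsInducedBlock M (Subgroup.centralizer ({x} : Set G)) β B ∧
            blockDefect p β = blockDefect p B}
      ≤ p ^ blockDefect p B := by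
  have hpp : p.Prime := Fact.out
  have hMp : M.IsPrime := isPrime_of_isPModular hM
  let _ : Fintype G := Fintype.ofFinite G
  let instC : ∀ x : G, Fintype (Subgroup.centralizer ({x} : Set G)) :=
    fun x => Fintype.ofFinite _
  have := Cfsg.Agent.Lib.CT.Wedderburn.finite_irrCharacter G
  let _ : Fintype (IrrCharacter G) := Fintype.ofFinite _
  have instF : ∀ x : G, Finite (IrrCharacter (Subgroup.centralizer ({x} : Set G))) :=
    fun x => Cfsg.Agent.Lib.CT.Wedderburn.finite_irrCharacter _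
  let instI : ∀ x : G, Fintype (IrrCharacter (Subgroup.centralizer ({x} : Set G))) :=
    fun x => Fintype.ofFinite _
  obtain ⟨a, ha⟩ : ∃ a : ℕ, a = (Nat.card G).factorization p := ⟨_, rfl⟩
  obtain ⟨d, hd⟩ : ∃ d : ℕ, d = blockDefect p B := ⟨_, rfl⟩
  obtain ⟨h, hh⟩ : ∃ h : ℕ, h = blockHeight p B (χ : G → ℂ) := ⟨_, rfl⟩
  rw [← hd, ← hh]
  obtain ⟨U, hU⟩ : ∃ U : Finset ℕ, U = (range (p ^ a)).filter (fun t => Nat.Coprime t (p ^ a)) :=
    ⟨_, rfl⟩
  have hUcard : U.card = (p ^ a).totient := by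
    rw [hU, Nat.totient_eq_card_coprime]
    congr 1
    ext t
    simp only [mem_filter, Nat.coprime_comm]
  have hφ : 0 < (p ^ a).totient := Nat.totient_pos.2 (pow_pos hpp.pos a)
  -- the sets of major subsections
  obtain ⟨Sx, hSx⟩ : ∃ Sx : ∀ x : G, Finset (Set (IrrCharacter (Subgroup.centralizer ({x} : Set G)))),
      ∀ x β, β ∈ Sx x ↔ (IsInducedBlock M (Subgroup.centralizer ({x} : Set G)) β B ∧
        blockDefect p β = d) :=
    ⟨fun x => (Set.toFinite {β : Set (IrrCharacter (Subgroup.centralizer ({x} : Set G))) |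
        IsInducedBlock M (Subgroup.centralizer ({x} : Set G)) β B ∧
          blockDefect p β = d}).toFinset,
      fun x β => by rw [Set.Finite.mem_toFinset]; rfl⟩
  have hcardS : ∀ x : G, Set.ncard {β : Set (IrrCharacter (Subgroup.centralizer ({x} : Set G))) |
      IsInducedBlock M (Subgroup.centralizer ({x} : Set G)) β B ∧ blockDefect p β = d}
        = (Sx x).card := by
    intro x
    rw [Set.ncard_eq_toFinset_card _ (Set.toFinite _)]
    congr 1
    ext β
    rw [Set.Finite.mem_toFinset, hSx]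
    rfl
  rw [sum_congr rfl (fun x _ => hcardS x)]
  -- the contributions
  obtain ⟨mmv, hmmv⟩ : ∃ mmv : ∀ x : G, ℕ →
      Set (IrrCharacter (Subgroup.centralizer ({x} : Set G))) → ℂ, ∀ x t β, mmv x t β =
        mm p β (fun c : Subgroup.centralizer ({x} : Set G) => (χ : G → ℂ) (x ^ t * c))
          (fun c : Subgroup.centralizer ({x} : Set G) => (χ : G → ℂ) (x ^ t * c)) :=
    ⟨_, fun _ _ _ => rfl⟩
  -- Step 1: for each unit, the contributions add up to at most one
  have hstep1 : ∀ t ∈ U, ∑ x ∈ X, ∑ β ∈ Sx x, (mmv x t β).re ≤ 1 := by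
    intro t ht
    rw [hU] at ht
    have htc : Nat.Coprime t (p ^ (Nat.card G).factorization p) := by
      rw [← ha]
      exact (mem_filter.1 ht).2
    obtain ⟨hXt, hXrept, hinj, hcop, -⟩ := pow_reps p X hX hXrep t htc
    have h1 := classInner_self_eq_sum_sections hpp (X.image (fun x : G => x ^ t)) hXt hXrept
      (χ : G → ℂ) (Cfsg.Agent.Lib.CT.Orth.irr_isClassFunction χ)
    rw [Cfsg.Agent.Lib.CT.Wedderburn.irr_orthonormal χ χ, if_pos rfl, sum_image hinj] at h1
    have h2 : ∀ x ∈ X, ∑ β ∈ Sx x, (mmv x t β).re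
        ≤ (classInner (secRes p (x ^ t) (χ : G → ℂ)) (secRes p (x ^ t) (χ : G → ℂ))).re := by
      intro x hx
      have h3 : classInner (secRes p (x ^ t) (χ : G → ℂ)) (secRes p (x ^ t) (χ : G → ℂ))
          = classInner
            (pRegularPart p (fun c : Subgroup.centralizer ({x} : Set G) =>
              (χ : G → ℂ) (x ^ t * c)))
            (pRegularPart p (fun c : Subgroup.centralizer ({x} : Set G) =>
              (χ : G → ℂ) (x ^ t * c))) :=
        norm_transport p (Subgroup.centralizer ({x ^ t} : Set G))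
          (Subgroup.centralizer ({x} : Set G)) (centralizer_pow_eq x t (hcop x hx)).symm
          (fun g => (χ : G → ℂ) (x ^ t * g))
      rw [h3]
      have h4 := sum_mm_le p M hM
        (fun c : Subgroup.centralizer ({x} : Set G) => (χ : G → ℂ) (x ^ t * c))
        (isClassFunction_shift_pow x t (Cfsg.Agent.Lib.CT.Orth.irr_isClassFunction χ))
        (Sx x) (fun β hβ => ((hSx x β).mp hβ).1.1)
      refine le_trans (le_of_eq ?_) h4
      refine sum_congr rfl fun β _ => ?_
      rw [hmmv]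
    have h5 : (1 : ℝ) = ∑ x ∈ X,
        (classInner (secRes p (x ^ t) (χ : G → ℂ)) (secRes p (x ^ t) (χ : G → ℂ))).re := by
      have h6 := congrArg Complex.re h1
      rw [Complex.one_re, Complex.re_sum] at h6
      exact h6
    rw [h5]
    exact sum_le_sum h2
  -- Step 2: the lower bound for each major subsection
  have hstep2 : ∀ x ∈ X, ∀ β ∈ Sx x, ((p ^ a).totient : ℝ) * (p : ℝ) ^ h
      ≤ ∑ t ∈ U, (p : ℝ) ^ d * (mmv x t β).re := by
    intro x hx β hβ
    obtain ⟨hind, hdef⟩ := (hSx x β).mp hβ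
    obtain ⟨k, hk⟩ := hX x hx
    have hxN : x ^ (p ^ a) = 1 := by
      rw [ha]
      exact (pow_reps p X hX hXrep 1 (Nat.coprime_one_left _)).2.2.2.2 x ⟨k, hk⟩
    have hxC : x ∈ Subgroup.centralizer ({x} : Set G) := by
      rw [Subgroup.mem_centralizer_iff]
      intro g hg
      rw [Set.mem_singleton_iff] at hg
      rw [hg]
    obtain ⟨z, hzdef⟩ : ∃ z : Subgroup.centralizer ({x} : Set G), z = ⟨x, hxC⟩ := ⟨_, rfl⟩
    have hzval : (z : G) = x := by rw [hzdef]
    have hz : ∀ g : Subgroup.centralizer ({x} : Set G), z * g = g * z := by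
      intro g
      apply Subtype.ext
      rw [Subgroup.coe_mul, Subgroup.coe_mul, hzval]
      exact Subgroup.mem_centralizer_iff.1 g.2 x rfl
    have hzN : z ^ (p ^ a) = 1 := by
      apply Subtype.ext
      rw [Subgroup.coe_pow, hzval, hxN]
      rfl
    obtain ⟨nX, -, hnX⟩ := Cfsg.Agent.Lib.CT.NormOne.exists_mult_sum
      (Cfsg.Agent.Lib.CT.Ops.isCharacter_restrict (Subgroup.centralizer ({x} : Set G))
        (Cfsg.Agent.Lib.CT.Wedderburn.isCharacter_of_irr χ.2))
    have hshift : ∀ t : ℕ,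
        (fun c : Subgroup.centralizer ({x} : Set G) => (χ : G → ℂ) (x ^ t * c))
        = fun g : Subgroup.centralizer ({x} : Set G) =>
            (fun c : Subgroup.centralizer ({x} : Set G) => (χ : G → ℂ) c) (z ^ t * g) := by
      intro t
      funext g
      show (χ : G → ℂ) (x ^ t * g)
        = (χ : G → ℂ) ((z ^ t * g : Subgroup.centralizer ({x} : Set G)) : G)
      rw [Subgroup.coe_mul, Subgroup.coe_pow, hzval]
    obtain ⟨s, hs⟩ : ∃ s : Finset (IrrCharacter (Subgroup.centralizer ({x} : Set G)) ×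
        IrrCharacter (Subgroup.centralizer ({x} : Set G))),
        s = (univ.filter (· ∈ β)) ×ˢ (univ.filter (· ∈ β)) := ⟨_, rfl⟩
    obtain ⟨K, hK⟩ : ∃ K : IrrCharacter (Subgroup.centralizer ({x} : Set G)) ×
        IrrCharacter (Subgroup.centralizer ({x} : Set G)) → ℤ,
        ∀ i, K i = (nX i.1 : ℤ) * (nX i.2 : ℤ) * mz p β i.1 i.2 := ⟨_, fun _ => rfl⟩
    obtain ⟨μ, hμdef⟩ : ∃ μ : IrrCharacter (Subgroup.centralizer ({x} : Set G)) ×
        IrrCharacter (Subgroup.centralizer ({x} : Set G)) → ℂ,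
        ∀ i, μ i = ((i.1 : Subgroup.centralizer ({x} : Set G) → ℂ) z
            / (i.1 : Subgroup.centralizer ({x} : Set G) → ℂ) 1)
          * conj ((i.2 : Subgroup.centralizer ({x} : Set G) → ℂ) z
            / (i.2 : Subgroup.centralizer ({x} : Set G) → ℂ) 1) := ⟨_, fun _ => rfl⟩
    have hμ : ∀ i ∈ s, μ i ^ (p ^ a) = 1 := by
      intro i _
      rw [hμdef, mul_pow, lam_pow _ i.1.2 z hz _ hzN, ← map_pow, lam_pow _ i.2.2 z hz _ hzN,
        map_one, one_mul]
    have hpairs : ∀ t : ℕ, (p : ℂ) ^ d * mmv x t β = ∑ i ∈ s, (K i : ℂ) * μ i ^ t := by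
      intro t
      rw [hmmv, hshift t, ← hdef, mm_pairs p M hM β _ _ nX nX hnX hnX z hz t, hs, sum_product]
      refine sum_congr rfl fun η _ => sum_congr rfl fun η' _ => ?_
      rw [hK, hμdef]
    have hdata : ∀ t : ℕ, t.Coprime (p ^ a) →
        (∃ ρ : ℂ, MemLocalRing M ρ ∧ (p : ℂ) ^ d * mmv x t β = (p : ℂ) ^ h * ρ) ∧
        (∃ r : ℝ, 0 < r ∧ mmv x t β = (r : ℂ)) := by
      intro t ht
      have htc : Nat.Coprime t (p ^ (Nat.card G).factorization p) := by
        rw [← ha]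
        exact ht
      have hcop := (pow_reps p X hX hXrep t htc).2.2.2.1 x hx
      have hx' : ∃ k' : ℕ, orderOf (x ^ t) = p ^ k' :=
        ⟨k, by rw [orderOf_pow, Nat.coprime_comm.1 hcop, Nat.div_one, hk]⟩
      have md := major_diag p M hM B (x ^ t) hx' (Subgroup.centralizer ({x} : Set G))
        (centralizer_pow_eq x t hcop) β hind (hdef.trans hd) χ hχ
      rw [← hd, ← hh, ← hmmv] at md
      exact md
    have hpos : ∀ t : ℕ, t.Coprime (p ^ a) →
        ∃ r : ℝ, 0 < r ∧ ∑ i ∈ s, (K i : ℂ) * μ i ^ t = (r : ℂ) := by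
      intro t ht
      obtain ⟨r, hr0, hr⟩ := (hdata t ht).2
      refine ⟨(p : ℝ) ^ d * r, mul_pos (pow_pos (Nat.cast_pos.2 hpp.pos) d) hr0, ?_⟩
      rw [← hpairs t, hr]
      push_cast
      ring
    have hval : ∀ t : ℕ, t.Coprime (p ^ a) → ∃ ρ : ℂ, MemLocalRing M ρ ∧
        ∑ i ∈ s, (K i : ℂ) * μ i ^ t = (p : ℂ) ^ h * ρ := by
      intro t ht
      obtain ⟨ρ, hρ, hρeq⟩ := (hdata t ht).1
      exact ⟨ρ, hρ, by rw [← hpairs t]; exact hρeq⟩
    have nb := norm_bound p M hM a h s K μ hμ hpos hval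
    rw [← hU] at nb
    refine le_trans nb (le_of_eq ?_)
    refine sum_congr rfl fun t _ => ?_
    rw [← hpairs t]
    have e1 : (p : ℂ) ^ d = (((p : ℝ) ^ d : ℝ) : ℂ) := by push_cast; ring
    rw [e1, Complex.re_ofReal_mul]
  -- Step 3: summation
  have hsum : ((p ^ a).totient : ℝ) * ((p : ℝ) ^ h * ((∑ x ∈ X, (Sx x).card : ℕ) : ℝ))
      ≤ ((p ^ a).totient : ℝ) * (p : ℝ) ^ d := by
    have h1 : ∑ x ∈ X, ∑ β ∈ Sx x, ((p ^ a).totient : ℝ) * (p : ℝ) ^ h
        ≤ ∑ x ∈ X, ∑ β ∈ Sx x, ∑ t ∈ U, (p : ℝ) ^ d * (mmv x t β).re :=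
      sum_le_sum fun x hx => sum_le_sum fun β hβ => hstep2 x hx β hβ
    have h2 : ∑ x ∈ X, ∑ β ∈ Sx x, ∑ t ∈ U, (p : ℝ) ^ d * (mmv x t β).re
        = ∑ t ∈ U, (p : ℝ) ^ d * ∑ x ∈ X, ∑ β ∈ Sx x, (mmv x t β).re := by
      have h3 : ∀ x ∈ X, ∑ β ∈ Sx x, ∑ t ∈ U, (p : ℝ) ^ d * (mmv x t β).re
          = ∑ t ∈ U, ∑ β ∈ Sx x, (p : ℝ) ^ d * (mmv x t β).re := fun x _ => sum_comm
      rw [sum_congr rfl h3, sum_comm]
      refine sum_congr rfl fun t _ => ?_
      rw [mul_sum]
      refine sum_congr rfl fun x _ => ?_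
      rw [mul_sum]
    have h4 : ∑ t ∈ U, (p : ℝ) ^ d * ∑ x ∈ X, ∑ β ∈ Sx x, (mmv x t β).re
        ≤ ∑ t ∈ U, (p : ℝ) ^ d * 1 :=
      sum_le_sum fun t ht => mul_le_mul_of_nonneg_left (hstep1 t ht)
        (pow_nonneg (Nat.cast_nonneg p) d)
    have h5 : ∑ x ∈ X, ∑ β ∈ Sx x, ((p ^ a).totient : ℝ) * (p : ℝ) ^ h
        = ((p ^ a).totient : ℝ) * ((p : ℝ) ^ h * ((∑ x ∈ X, (Sx x).card : ℕ) : ℝ)) := by
      push_cast
      rw [mul_sum, mul_sum]
      refine sum_congr rfl fun x _ => ?_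
      rw [sum_const, nsmul_eq_mul]
      ring
    have h6 : ∑ t ∈ U, (p : ℝ) ^ d * 1 = ((p ^ a).totient : ℝ) * (p : ℝ) ^ d := by
      rw [sum_const, nsmul_eq_mul, hUcard, mul_one]
    rw [← h5, ← h6]
    exact le_trans h1 (le_trans (le_of_eq h2) h4)
  have hφ' : (0 : ℝ) < ((p ^ a).totient : ℝ) := by exact_mod_cast hφ
  have hfin : (p : ℝ) ^ h * ((∑ x ∈ X, (Sx x).card : ℕ) : ℝ) ≤ (p : ℝ) ^ d :=
    le_of_mul_le_mul_left hsum hφ'
  exact_mod_cast hfin

end Cfsg.Agent.Lib.CT.MajSum
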